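import Cfsg.Agent.BlockCover.Covers
import Cfsg.Agent.BrauerPairs.Automized
import Cfsg.Agent.BrauerPairs.PairsMax

/-!
A block with an abelian defect group supplementing a normal subgroup of `p`-power index has a
nonvanishing class in every coset of that subgroup.
-/

set_option autoImplicit false
set_option linter.unusedSectionVars false
set_option linter.style.haveILetI false

namespace Cfsg.Agent.BlockCover

open MonoidAlgebra BrauerPairs Cfsg

universe u

section Group

variable {G : Type u} [Group G]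

/-- An element of an abelian subgroup normalized by `T` can be averaged to a `T`-fixed one in the
same coset, when the index of the centralizer in `T` is prime to the order. -/
theorem exists_fixed_mem_coset [Finite G] {p : ℕ} [Fact p.Prime] {N P T : Subgroup G} [N.Normal]
    (hP : IsPGroup p P) (hab : ∀ x ∈ P, ∀ y ∈ P, x * y = y * x)
    (hcomm : ∀ a b : G ⧸ N, a * b = b * a) (hTN : T ≤ Subgroup.normalizer (P : Set G))
    (hidx : ¬ p ∣ (Subgroup.centralizer (P : Set G)).relIndex T) {u : G} (hu : u ∈ P) :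
    ∃ v ∈ P, (∀ t ∈ T, t * v * t⁻¹ = v) ∧ (v : G ⧸ N) = (u : G ⧸ N) := by
  classical
  letI : CommGroup P := { (inferInstance : Group P) with
    mul_comm := fun a b => Subtype.ext (hab _ a.2 _ b.2) }
  set C1 := (Subgroup.centralizer (P : Set G)).subgroupOf T with hC1
  haveI : Fintype (T ⧸ C1) := Fintype.ofFinite _
  let φ : T →* MulAut P := (Subgroup.normalizerMonoidHom P).comp (Subgroup.inclusion hTN)
  have hφ : ∀ (t : T) (x : P), ((φ t x : P) : G) = (t : G) * x * (t : G)⁻¹ := fun t x => rfl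
  set f : T ⧸ C1 → P := fun q => φ q.out ⟨u, hu⟩ with hf
  set n := Fintype.card (T ⧸ C1) with hn
  have hnp : ¬ p ∣ n := by rwa [hn, ← Nat.card_eq_fintype_card]
  obtain ⟨k, hk⟩ := IsPGroup.iff_orderOf.mp hP ⟨u, hu⟩
  obtain ⟨m, hm⟩ := exists_pow_eq_self_of_coprime (x := (⟨u, hu⟩ : P)) (n := n) (by
    rw [hk]
    exact Nat.Coprime.pow_right k ((Fact.out : p.Prime).coprime_iff_not_dvd.mpr hnp).symm)
  have hinv : ∀ t : T, φ t (∏ q, f q) = ∏ q, f q := by
    intro t
    rw [map_prod]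
    refine Fintype.prod_equiv (MulAction.toPerm t) _ _ fun q => ?_
    have hq : (((t * q.out : T)) : T ⧸ C1) = t • q := MulAction.Quotient.coe_smul_out C1 t q
    obtain ⟨c, hc⟩ := QuotientGroup.mk_out_eq_mul C1 (t * q.out)
    rw [hq] at hc
    apply Subtype.ext
    rw [MulAction.toPerm_apply]
    simp only [hf, hφ, hc, Subgroup.coe_mul]
    have hcu : ((c : T) : G) * u * ((c : T) : G)⁻¹ = u := by
      have h1 := Subgroup.mem_centralizer_iff.1 (Subgroup.mem_subgroupOf.1 c.2) u hu
      rw [← h1, mul_inv_cancel_right]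
    calc (t : G) * ((q.out : G) * u * (q.out : G)⁻¹) * (t : G)⁻¹
        = (t : G) * (q.out : G) * (((c : T) : G) * u * ((c : T) : G)⁻¹) *
          ((t : G) * (q.out : G))⁻¹ := by rw [hcu]; group
      _ = _ := by group
  refine ⟨(((∏ q, f q) ^ m : P) : G), SetLike.coe_mem _, fun t ht => ?_, ?_⟩
  · have h1 := hinv ⟨t, ht⟩
    have h2 : φ ⟨t, ht⟩ ((∏ q, f q) ^ m) = (∏ q, f q) ^ m := by rw [map_pow, h1]
    exact (hφ ⟨t, ht⟩ _).symm.trans (congrArg Subtype.val h2)
  · letI : CommGroup (G ⧸ N) := { (inferInstance : Group (G ⧸ N)) with mul_comm := hcomm }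
    let π : P →* G ⧸ N := (QuotientGroup.mk' N).comp P.subtype
    have hπ : ∀ q, π (f q) = π ⟨u, hu⟩ := fun q => by
      show ((((f q : P) : G)) : G ⧸ N) = (u : G ⧸ N)
      rw [hf, hφ, QuotientGroup.mk_mul, QuotientGroup.mk_mul, QuotientGroup.mk_inv,
        mul_inv_cancel_comm]
    have h3 : π ((∏ q, f q) ^ m) = π ((⟨u, hu⟩ ^ n) ^ m) := by
      rw [map_pow, map_prod, Finset.prod_congr rfl fun q _ => hπ q, Finset.prod_const,
        Finset.card_univ, map_pow, map_pow]
    rw [hm] at h3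
    exact h3

end Group

section Abstract

variable {G : Type u} [Group G] [Finite G] {k : Type*} [Field k]

theorem fixed_sum_cosets {H T : Subgroup G} [Fintype (H ⧸ T.subgroupOf H)]
    {a : MonoidAlgebra k G} (ha : Fixed T a) :
    Fixed H (∑ q : H ⧸ T.subgroupOf H, cj (q.out : G) a) := by
  rw [fixed_iff_cj]
  intro t ht
  rw [map_sum]
  refine Fintype.sum_equiv (MulAction.toPerm (⟨t, ht⟩ : H)) _ _ fun q => ?_
  have hq : (((⟨t, ht⟩ * q.out : H)) : H ⧸ T.subgroupOf H) = (⟨t, ht⟩ : H) • q :=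
    MulAction.Quotient.coe_smul_out (T.subgroupOf H) (⟨t, ht⟩ : H) q
  obtain ⟨c, hc⟩ := QuotientGroup.mk_out_eq_mul (T.subgroupOf H) (⟨t, ht⟩ * q.out : H)
  rw [hq] at hc
  rw [MulAction.toPerm_apply, cj_cj, hc]
  simp only [Subgroup.coe_mul]
  rw [← cj_cj (t * (q.out : G)), fixed_iff_cj.1 ha _ (Subgroup.mem_subgroupOf.1 c.2)]

theorem Homog.cj {N : Subgroup G} [N.Normal] (hcomm : ∀ a b : G ⧸ N, a * b = b * a) {t : G ⧸ N}
    {a : MonoidAlgebra k G} (ha : Homog N t a) (x : G) : Homog N t (cj x a) := by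
  intro g hg
  rw [coeff_cj]
  refine ha _ fun h => hg ?_
  rw [← h, QuotientGroup.mk_mul, QuotientGroup.mk_mul, QuotientGroup.mk_inv, hcomm _ (g : G ⧸ N),
    inv_mul_cancel_right]

theorem centralIn_single {H : Subgroup G} {v : G} (hv : v ∈ H) (hc : ∀ h ∈ H, h * v * h⁻¹ = v) :
    CentralIn H (single v (1 : k)) := by
  classical
  refine ⟨fun g hg => ?_, fun h hh g => ?_⟩
  · rw [coeff_single, Finsupp.single_eq_of_ne]
    exact fun hgv => hg (hgv ▸ hv)
  · rw [coeff_single, Finsupp.single_apply, Finsupp.single_apply]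
    refine if_congr ⟨fun he => ?_, fun he => ?_⟩ rfl rfl
    · have h1 := hc h⁻¹ (H.inv_mem hh)
      rw [he] at h1
      rw [he, ← h1]
      group
    · rw [← he, hc h hh]

variable {p : ℕ} [Fact p.Prime] [CharP k p] {ι₀ : Type*} [Fintype ι₀]
  {S₀ : BlockSys k (⊤ : Subgroup G) ι₀} {ι : Subgroup G → Type*} [∀ P, Fintype (ι P)]
  {S : ∀ P : Subgroup G, BlockSys k (Subgroup.centralizer (P : Set G)) (ι P)}

/-- The Brauer map at a strictly larger subgroup kills the orbit idempotent of a maximal pair. -/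
theorem trunc_orbitIdem_eq_zero {B : ι₀} {P : Subgroup G} {e : ι P}
    (h : MaxPair S₀ S p B ⟨P, e⟩) {R : Subgroup G} (hR : IsPGroup p R) (hlt : P < R)
    (hRN : R ≤ Subgroup.normalizer (P : Set G)) : trunc R (orbitIdem S P e) = 0 := by
  classical
  ext x
  rw [coeff_trunc]
  split_ifs with hx
  · by_contra hne
    obtain ⟨i, hi, g, hig⟩ := exists_ext_of_coeff_ne_zero e hR hlt.le hRN hx (by simpa using hne)
    obtain ⟨y, hy, hie⟩ := mem_orbitIdx.1 hi
    obtain ⟨c, hc⟩ := exists_cjRel (S := S) y⁻¹ ⟨R, g⟩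
    have hrel : CjRel S y⁻¹ ⟨P, i⟩ ⟨P, e⟩ :=
      ⟨map_conj_of_mem_normalizer (inv_mem hy), by rw [hie, cj_inv_cj]⟩
    have hcard := hc.card_eq
    rw [h.eq_of_nsub (hig.cjRel hrel hc)] at hcard
    exact (card_lt_of_lt hlt).ne hcard
  · simp

/-- A defect group of the stabilizer block of a maximal pair is the subgroup of the pair. -/
theorem eq_of_isDefIn_stab {B : ι₀} {P : Subgroup G} {e : ι P} (h : MaxPair S₀ S p B ⟨P, e⟩)
    {T : Subgroup G} (hPT : P ≤ T) (hTN : T ≤ Subgroup.normalizer (P : Set G))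
    (hfix : Fixed T ((S P).idem e)) {D : Subgroup G}
    (hD : IsDefIn p T ((S P).idem e) D) : D = P := by
  have hne : trunc P ((S P).idem e) ≠ 0 := by
    rw [trunc_eq_self_iff.2 ((S P).central_idem e).supp]
    exact (S P).idem_ne_zero e
  obtain ⟨y, hy, hle⟩ := hD.2.2.2 P hPT h.1.1 hne
  have hPD : P ≤ D := by
    intro z hz
    have hz' : y * z * y⁻¹ ∈ P := (Subgroup.mem_normalizer_iff.mp (hTN hy) z).1 hz
    simpa [mul_assoc] using mem_map_conj_iff.1 (hle hz')
  have hDN : D ≤ Subgroup.normalizer (P : Set G) := hD.1.trans hTN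
  have hfD := hfix.mono hD.1
  have hcen : CentralIn (Subgroup.centralizer (D : Set G)) (trunc D ((S P).idem e)) :=
    ⟨suppIn_trunc _ _, ((((S P).central_idem e).fixed).mono (centralizer_anti hPD)).trunc
      (Subgroup.centralizer_le_normalizer _)⟩
  obtain ⟨g, hg⟩ := (S D).exists_lam_one hcen
    (by rw [← trunc_mul hD.2.1 hfD hfD, (S P).idem_mul_self]) hD.2.2.1
  exact h.eq_of_nsub (c := ⟨D, g⟩) ⟨hD.2.1, hPD, hDN, hfD, hg⟩

/-- A fixed element `v` of the subgroup of a maximal pair with trivial inertia obstruction yields a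
class of the coset of `v` on which the block is a unit. -/
theorem exists_lam_ne_zero_of_maxPair {N : Subgroup G} [N.Normal]
    (hcomm : ∀ a b : G ⧸ N, a * b = b * a) {B : ι₀} {P : Subgroup G} {e : ι P}
    (he : MaxPair S₀ S p B ⟨P, e⟩) (hPC : P ≤ Subgroup.centralizer (P : Set G)) {T : Subgroup G}
    (hCT : Subgroup.centralizer (P : Set G) ≤ T)
    (hfix : Fixed T ((S P).idem e))
    (hstab : ∀ q ∈ Subgroup.normalizer (P : Set G), cj q ((S P).idem e) = (S P).idem e → q ∈ T)
    (hsupp : SuppIn N ((S P).idem e)) {v : G} (hv : v ∈ P) (hvT : ∀ t ∈ T, t * v * t⁻¹ = v)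
    {g : G} (hvg : (v : G ⧸ N) = (g : G ⧸ N)) :
    ∃ x : G, (x : G ⧸ N) = (g : G ⧸ N) ∧ S₀.lam B (classSum k ⊤ x) ≠ 0 := by
  classical
  have hP : IsPGroup p P := he.1.1
  -- the element
  set e' := (S P).idem e with he'
  set s : MonoidAlgebra (k) G := single v 1 with hs
  have hsC : CentralIn (Subgroup.centralizer (P : Set G)) s := centralIn_single (hPC hv) fun c hc => hvT c (hCT hc)
  have heC : CentralIn (Subgroup.centralizer (P : Set G)) e' := (S P).central_idem e
  have hsT : Fixed T s := (centralIn_single (H := T) (k := k) (hPC.trans hCT hv) hvT).fixed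
  set a := e' * s with ha
  have haT : Fixed T a := hfix.mul hsT
  haveI : Fintype ((Subgroup.normalizer (P : Set G)) ⧸ T.subgroupOf (Subgroup.normalizer (P : Set G))) := Fintype.ofFinite _
  set w := ∑ q : (Subgroup.normalizer (P : Set G)) ⧸ T.subgroupOf (Subgroup.normalizer (P : Set G)), cj (q.out : G) a with hw
  have hwfix : Fixed (Subgroup.normalizer (P : Set G)) w := fixed_sum_cosets haT
  have hmapC : ∀ q : G, q ∈ (Subgroup.normalizer (P : Set G)) → (Subgroup.centralizer (P : Set G)).map (MulAut.conj q).toMonoidHom = (Subgroup.centralizer (P : Set G)) := fun q hq => by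
    rw [← centralizer_map_conj, map_conj_of_mem_normalizer hq]
  have hterm : ∀ q ∈ (Subgroup.normalizer (P : Set G)), ∃ j ∈ orbitIdx S P e,
      cj q a = (S P).idem j * cj q s ∧ (q ∉ T → j ≠ e) ∧ CentralIn (Subgroup.centralizer (P : Set G)) (cj q s) := by
    intro q hq
    obtain ⟨j, hj, -⟩ := (S P).exists_idem_eq_cj (S P) q (hmapC q hq) e
    refine ⟨j, mem_orbitIdx.2 ⟨q, hq, hj⟩, by rw [ha, map_mul, hj], fun hqT hje => hqT ?_,
      hmapC q hq ▸ hsC.cj q⟩
    exact hstab q hq (by rw [hje] at hj; exact hj.symm)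
  have hwC : CentralIn (Subgroup.centralizer (P : Set G)) w := CentralIn.sum _ fun q _ => by
    obtain ⟨j, -, hj, -, hjs⟩ := hterm _ q.out.2
    rw [hj]
    exact ((S P).central_idem j).mul hjs
  -- its value on the pair
  have hlam : (S P).lam e w ≠ 0 := by
    rw [hw, (S P).lam_sum e _ fun q _ => by
      obtain ⟨j, -, hj, -, hjs⟩ := hterm _ q.out.2
      rw [hj]; exact ((S P).central_idem j).mul hjs,
      Finset.sum_eq_single (QuotientGroup.mk (1 : (Subgroup.normalizer (P : Set G))))]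
    · have hmem : (((QuotientGroup.mk (1 : (Subgroup.normalizer (P : Set G))) : (Subgroup.normalizer (P : Set G)) ⧸ T.subgroupOf (Subgroup.normalizer (P : Set G))).out : (Subgroup.normalizer (P : Set G))) : G) ∈ T := by
        obtain ⟨c, hc⟩ := QuotientGroup.mk_out_eq_mul (T.subgroupOf (Subgroup.normalizer (P : Set G))) (1 : (Subgroup.normalizer (P : Set G)))
        rw [hc, one_mul]
        exact Subgroup.mem_subgroupOf.1 c.2
      rw [fixed_iff_cj.1 haT _ hmem, ha, (S P).lam_mul e _ _ heC hsC, he',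
        (S P).lam_idem_self, one_mul]
      intro h0
      obtain ⟨n, hn⟩ := IsPGroup.iff_orderOf.mp hP ⟨v, hv⟩
      rw [← Subgroup.orderOf_coe] at hn
      have h1 := (S P).lam_pow e hsC (p ^ n)
      rw [h0, zero_pow (pow_ne_zero _ (Fact.out : p.Prime).ne_zero), hs, single_pow, one_pow,
        ← hn, pow_orderOf_eq_one, ← one_def, (S P).lam_one] at h1
      exact one_ne_zero h1
    · intro q _ hq
      obtain ⟨j, -, hj, hje, hjs⟩ := hterm _ q.out.2
      have hqT : (q.out : G) ∉ T := fun h => hq (by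
        rw [← QuotientGroup.out_eq' q, QuotientGroup.eq, mul_one]
        exact inv_mem (Subgroup.mem_subgroupOf.2 h))
      rw [hj, (S P).lam_mul e _ _ ((S P).central_idem j) hjs,
        (S P).lam_idem_ne (hje hqT).symm, zero_mul]
    · exact fun h => absurd (Finset.mem_univ _) h
  -- it is killed by the larger subgroups
  have how : orbitIdem S P e * w = w := by
    rw [hw, Finset.mul_sum]
    refine Finset.sum_congr rfl fun q _ => ?_
    obtain ⟨j, hjo, hj, -, -⟩ := hterm _ q.out.2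
    rw [hj, ← mul_assoc, (S P).mul_idem_eq_of_lam_one (centralIn_orbitIdem P e)
      (orbitIdem_mul_self P e) (by rw [lam_orbitIdem, if_pos hjo])]
  have hkill : ∀ R : Subgroup G, IsPGroup p R → P < R → R ≤ (Subgroup.normalizer (P : Set G)) → trunc R w = 0 := by
    intro R hR hlt hRN
    rw [← how, trunc_mul hR ((fixed_orbitIdem P e).mono hRN) (hwfix.mono hRN),
      trunc_orbitIdem_eq_zero he hR hlt hRN, zero_mul]
  -- its coset
  have hhom : Homog N (g : G ⧸ N) a := by
    have h1 : Homog N (1 : G ⧸ N) e' := fun x hx =>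
      hsupp x fun h => hx ((QuotientGroup.eq_one_iff x).2 h)
    have h2 : Homog N (g : G ⧸ N) s := fun x hx => by
      rw [hs, coeff_single, Finsupp.single_eq_of_ne]
      exact fun hxv => hx (by rw [hxv, hvg])
    simpa [ha] using h1.mul h2
  -- expand in classes
  obtain ⟨X, hX0, -, hX⟩ := exists_eq_sum_classSum hwfix
  have hXC : ∀ x ∈ X, x ∈ (Subgroup.centralizer (P : Set G)) := fun x hx => not_not.1 fun h => hX0 x hx (hwC.supp x h)
  have hcl : ∀ x ∈ X, CentralIn (Subgroup.centralizer (P : Set G)) (BrauerPairs.classSum (k) (Subgroup.normalizer (P : Set G)) x) :=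
    fun x hx => centralIn_classSum_normalizer (hXC x hx)
  rw [hX, (S P).lam_sum e _ fun x hx => (hcl x hx).smul _] at hlam
  obtain ⟨x, hx, hne⟩ := Finset.exists_ne_zero_of_sum_ne_zero hlam
  rw [(S P).lam_smul e _ _ (hcl x hx)] at hne
  refine ⟨x, ?_, ?_⟩
  · by_contra hxg
    apply hX0 x hx
    rw [hw, coeff_sum, Finsupp.finsetSum_apply]
    exact Finset.sum_eq_zero fun q _ => (hhom.cj hcomm _) x hxg
  · obtain ⟨hK, -⟩ := classSum_of_maximal_local (k := k) hP (hXC x hx)
      fun R hR hlt hRN hxR => hX0 x hx (by rw [← coeff_trunc_mem _ hxR, hkill R hR hlt hRN]; rfl)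
    rw [← lam_classSum_eq_of_pairOf he.1 hK]
    exact right_ne_zero_of_mul hne

end Abstract

section Concrete

variable {p : ℕ} {M : Ideal AlgInt} [M.IsPrime] {G : Type u} [Group G] [Finite G] [Fact p.Prime]
  [CharP (Block.ResF M) p] {N : Subgroup G} [N.Normal]

theorem quotient_comm_of_sup {P : Subgroup G} (hab : ∀ x ∈ P, ∀ y ∈ P, x * y = y * x)
    (htop : N ⊔ P = ⊤) : ∀ a b : G ⧸ N, a * b = b * a := by
  have key : ∀ a : G ⧸ N, ∃ v ∈ P, (v : G ⧸ N) = a := by
    intro a
    induction a using QuotientGroup.induction_on with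
    | H g =>
      have h1 : g ∈ ((N ⊔ P : Subgroup G) : Set G) := by rw [htop]; trivial
      rw [Subgroup.normal_mul] at h1
      obtain ⟨n, hn, v, hv, rfl⟩ := Set.mem_mul.1 h1
      exact ⟨v, hv, by rw [QuotientGroup.mk_mul, (QuotientGroup.eq_one_iff n).2 hn, one_mul]⟩
  intro a b
  obtain ⟨v, hv, rfl⟩ := key a
  obtain ⟨w, hw, rfl⟩ := key b
  rw [← QuotientGroup.mk_mul, ← QuotientGroup.mk_mul, hab v hv w hw]

/-- Every coset of `N` contains a class on which a block with abelian defect group is a unit. -/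
theorem exists_lam_classSum_ne_zero (hM : IsPModular p M) {m : ℕ} (hm : N.index = p ^ m)
    {B : Blk M G} {P : Subgroup G} (hP : IsDef (blockSysTop M) p B P)
    (hab : ∀ x ∈ P, ∀ y ∈ P, x * y = y * x) (htop : N ⊔ P = ⊤) (g : G) :
    ∃ x : G, (x : G ⧸ N) = (g : G ⧸ N) ∧
      (blockSysTop M).lam B (BrauerPairs.classSum (Block.ResF M) ⊤ x) ≠ 0 := by
  classical
  have hcomm := quotient_comm_of_sup hab htop
  obtain ⟨u, hu, hug⟩ : ∃ u ∈ P, (u : G ⧸ N) = (g : G ⧸ N) := by
    have h1 : g ∈ ((N ⊔ P : Subgroup G) : Set G) := by rw [htop]; trivial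
    rw [Subgroup.normal_mul] at h1
    obtain ⟨n, hn, v, hv, rfl⟩ := Set.mem_mul.1 h1
    exact ⟨v, hv, by rw [QuotientGroup.mk_mul, (QuotientGroup.eq_one_iff n).2 hn, one_mul]⟩
  obtain ⟨e, he⟩ := exists_maxPair_of_isDef (S := pairSys M G) hP
  set T := stab (⟨P, e⟩ : PairIdx M G) with hTdef
  have hTN : T ≤ (Subgroup.normalizer (P : Set G)) := stab_le_normalizer _
  have hCT : (Subgroup.centralizer (P : Set G)) ≤ T := centralizer_le_stab (⟨P, e⟩ : PairIdx M G)
  have hPC : P ≤ (Subgroup.centralizer (P : Set G)) := fun x hx => Subgroup.mem_centralizer_iff.2 fun y hy => hab y hy x hx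
  have hfix : Fixed T ((pairSys M G P).idem e) := fixed_stab (⟨P, e⟩ : PairIdx M G)
  obtain ⟨E, hE, -⟩ := exists_blk_stab (a := (⟨P, e⟩ : PairIdx M G)) hP.1 hCT (hPC.trans hCT) le_rfl
  obtain ⟨D, hD⟩ := (blockSys M T).exists_isDefIn (p := p) E
  rw [hE] at hD
  rw [eq_of_isDefIn_stab he (hPC.trans hCT) hTN hfix hD] at hD
  have hidx : ¬ p ∣ (Subgroup.centralizer (P : Set G)).relIndex T := by
    have h1 := not_dvd_relIndex_of_isDefIn (S := pairSys M G) (hPC.trans hCT) hCT hTN hfix hD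
    rwa [sup_eq_right.2 hPC] at h1
  obtain ⟨v, hv, hvT, hvu⟩ := exists_fixed_mem_coset hP.1 hab hcomm hTN hidx hu
  have hsupp : SuppIn N ((pairSys M G P).idem e) :=
    (suppIn_idem_inf hM hm e).mono inf_le_right
  exact exists_lam_ne_zero_of_maxPair (S₀ := blockSysTop M) (S := pairSys M G) hcomm he hPC hCT hfix
    (fun q hq h => ⟨hq, h⟩) hsupp hv hvT (hvu.trans hug)

end Concrete

end Cfsg.Agent.BlockCover
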