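import Cfsg.Agent.BlockCover.AbelianExtend
import Cfsg.Agent.Char.Linear
import Cfsg.Agent.CharInd.Clifford
import Cfsg.Agent.Block.Idempotent
import Cfsg.Prelude.Def_BlockRank

/-!
Characters of a block with an abelian defect group supplementing a normal subgroup of `p`-power
index: restriction to the subgroup is irreducible and each fibre has the index as its size.
-/

set_option autoImplicit false
set_option linter.unusedSectionVars false
set_option linter.style.haveILetI false

namespace Cfsg.Agent.BlockCover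

open BrauerPairs Cfsg
open scoped ComplexConjugate

universe u

variable {G : Type u} [Group G] [Fintype G] {N : Subgroup G} [N.Normal] [Fintype N]

/-- A character nonvanishing on every coset of a normal subgroup with abelian quotient restricts
irreducibly. -/
theorem isIrr_restrict_of_nonvanishing (hcomm : ∀ a b : G ⧸ N, a * b = b * a) {χ : G → ℂ}
    (hχ : IsIrrCharacter G χ) (hne : ∀ g : G, ∃ x : G, (x : G ⧸ N) = (g : G ⧸ N) ∧ χ x ≠ 0) :
    IsIrrCharacter N (fun n : N => χ n) := by
  classical
  refine Char.isIrrCharacter_iff_classInner.mpr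
    ⟨Char.isCharacter_restrict (Char.isCharacter_of_irr hχ) N, ?_⟩
  haveI : Fintype (G ⧸ N) := Fintype.ofFinite _
  have hη : ∀ (η : IrrCharacter (G ⧸ N)) (y : G ⧸ N),
      (η : G ⧸ N → ℂ) y * conj ((η : G ⧸ N → ℂ) 1) = (η : G ⧸ N → ℂ) y := fun η y => by
    rw [Char.irr_degree_one_of_comm hcomm η.2, map_one, mul_one]
  have hsum : ∀ y : G ⧸ N, ∑ η : IrrCharacter (G ⧸ N), (η : G ⧸ N → ℂ) y =
      if y = 1 then (N.index : ℂ) else 0 := by
    intro y
    have h1 := Char.sum_irr_degree_mul (G := G ⧸ N) y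
    simp only [fun η : IrrCharacter (G ⧸ N) => Char.irr_degree_one_of_comm hcomm η.2, one_mul] at h1
    rw [h1]
    rfl
  have hinner : ∀ η : IrrCharacter (G ⧸ N),
      classInner (fun g : G => (η : G ⧸ N → ℂ) g * χ g) χ =
        if η = ⟨fun _ => 1, Char.isIrrCharacter_const_one⟩ then 1 else 0 := by
    intro η
    split_ifs with h
    · subst h
      simp only [one_mul]
      exact Char.classInner_irr_self hχ
    · obtain ⟨f, hf⟩ := Char.irr_exists_monoidHom_of_comm hcomm η.2
      have hirr : IsIrrCharacter G (fun g : G => (η : G ⧸ N → ℂ) g * χ g) := by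
        have := Char.isIrrCharacter_mul_monoidHom hχ (f.comp (QuotientGroup.mk' N))
        simpa [hf] using this
      refine Char.classInner_irr_ne hirr hχ fun he => h (Subtype.ext (funext fun y => ?_))
      induction y using QuotientGroup.induction_on with
      | H g =>
        obtain ⟨x, hx, hx0⟩ := hne g
        have := congrFun he x
        simp only [hx] at this
        exact (mul_eq_right₀ hx0).1 this
  have key : classInner (fun n : N => χ n) (fun n : N => χ n) =
      ∑ η : IrrCharacter (G ⧸ N), classInner (fun g : G => (η : G ⧸ N → ℂ) g * χ g) χ := by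
    have h2 : ∀ g : G, ∑ η : IrrCharacter (G ⧸ N), ((η : G ⧸ N → ℂ) g * χ g) * conj (χ g) =
        if g ∈ N then (N.index : ℂ) * (χ g * conj (χ g)) else 0 := fun g => by
      simp only [mul_assoc]
      rw [← Finset.sum_mul, hsum]
      by_cases hg : g ∈ N
      · rw [if_pos ((QuotientGroup.eq_one_iff g).2 hg), if_pos hg]
      · rw [if_neg (mt (QuotientGroup.eq_one_iff g).1 hg), if_neg hg, zero_mul]
    simp only [classInner, ← Finset.mul_sum]
    rw [Finset.sum_comm, Finset.sum_congr rfl fun g _ => h2 g, ← Finset.sum_filter,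
      Finset.sum_subtype (p := (· ∈ N)) (Finset.univ.filter (· ∈ N)) (by simp), ← Finset.mul_sum,
      ← mul_assoc]
    congr 1
    rw [← N.card_mul_index, Nat.cast_mul]
    field_simp [Subgroup.index_ne_zero_of_finite]
  rw [key, Finset.sum_congr rfl fun η _ => hinner η]
  simp

/-- If every character over `θ` restricts irreducibly, there are index many of them. -/
theorem card_over_of_restrict_eq (θ : IrrCharacter N)
    (h : ∀ χ : IrrCharacter G, classInner (fun n : N => (χ : G → ℂ) n) (θ : N → ℂ) ≠ 0 →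
      ∀ n : N, (χ : G → ℂ) n = (θ : N → ℂ) n) :
    Nat.card {χ : IrrCharacter G // ∀ n : N, (χ : G → ℂ) n = (θ : N → ℂ) n} = N.index := by
  classical
  have hθ1 : (θ : N → ℂ) 1 ≠ 0 := Char.irr_one_ne_zero θ.2
  have hval : ∀ χ : IrrCharacter G,
      classInner (indFun N (θ : N → ℂ)) (χ : G → ℂ) * (χ : G → ℂ) 1 =
        if (∀ n : N, (χ : G → ℂ) n = (θ : N → ℂ) n) then (θ : N → ℂ) 1 else 0 := fun χ => by
    rw [CharInd.classInner_indFun_left N _ (Char.irr_isClassFunction χ.2), ← CharInd.classInner_swap]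
    split_ifs with hc
    · rw [show (fun n : N => (χ : G → ℂ) n) = (θ : N → ℂ) from funext hc,
        Char.classInner_irr_self θ.2, map_one, one_mul, ← hc 1]
      rfl
    · rw [show classInner (fun n : N => (χ : G → ℂ) n) (θ : N → ℂ) = 0 from
        by_contra fun h0 => hc (h χ h0), map_zero, zero_mul]
  have h1 := congrFun (Char.eq_sum_classInner_smul (Char.isCharacter_isClassFunction
    (CharInd.isCharacter_indFun N (Char.isCharacter_of_irr θ.2)))) 1
  simp only [Finset.sum_apply, Pi.smul_apply, smul_eq_mul, CharInd.indFun_one_apply, hval] at h1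
  rw [← Finset.sum_filter, Finset.sum_const, nsmul_eq_mul] at h1
  have h2 := mul_right_cancel₀ hθ1 h1
  rw [Nat.card_eq_fintype_card, Fintype.card_subtype]
  exact_mod_cast h2.symm

theorem pRegularPart_extend {p : ℕ} (hp : p.Prime) {k : ℕ} (hk : N.index = p ^ k)
    {χ : G → ℂ} {θ : N → ℂ} (h : ∀ n : N, χ n = θ n) :
    pRegularPart p χ = Function.extend (fun n : N => (n : G)) (pRegularPart p θ) 0 := by
  classical
  funext g
  by_cases hg : g ∈ N
  · rw [show g = (fun n : N => (n : G)) ⟨g, hg⟩ from rfl, Subtype.coe_injective.extend_apply]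
    simp only [pRegularPart, IsPRegular, Subgroup.orderOf_mk, ← h ⟨g, hg⟩]
    congr
  · rw [Function.extend_apply' _ _ _ (fun ⟨n, hn⟩ => hg (hn ▸ n.2))]
    simp only [pRegularPart, Pi.zero_apply]
    rw [if_neg fun hreg => hg (BrauerPairs.mem_of_isPRegular hp hk hreg)]

theorem blockRank_eq_of_restrict {p : ℕ} (hp : p.Prime) {k : ℕ} (hk : N.index = p ^ k)
    {B : Set (IrrCharacter G)} {b : Set (IrrCharacter N)}
    (h1 : ∀ χ ∈ B, ∃ θ ∈ b, ∀ n : N, (χ : G → ℂ) n = (θ : N → ℂ) n)
    (h2 : ∀ θ ∈ b, ∃ χ ∈ B, ∀ n : N, (χ : G → ℂ) n = (θ : N → ℂ) n) :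
    blockRank p B = blockRank p b := by
  classical
  set E := Function.ExtendByZero.linearMap ℂ (fun n : N => (n : G)) with hE
  have hEinj : Function.Injective E := fun a a' he => funext fun n => by
    have h0 : ∀ c : N → ℂ, E c (n : G) = c n := fun c =>
      Subtype.coe_injective.extend_apply c 0 n
    rw [← h0 a, ← h0 a', he]
  have himg : (fun χ : IrrCharacter G => pRegularPart p (χ : G → ℂ)) '' B =
      E '' ((fun θ : IrrCharacter N => pRegularPart p (θ : N → ℂ)) '' b) := by
    ext f
    constructor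
    · rintro ⟨χ, hχ, rfl⟩
      obtain ⟨θ, hθ, he⟩ := h1 χ hχ
      exact ⟨_, ⟨θ, hθ, rfl⟩, (pRegularPart_extend hp hk he).symm⟩
    · rintro ⟨_, ⟨θ, hθ, rfl⟩, rfl⟩
      obtain ⟨χ, hχ, he⟩ := h2 θ hθ
      exact ⟨χ, hχ, pRegularPart_extend hp hk he⟩
  unfold blockRank
  rw [himg, ← Submodule.map_span]
  exact (Submodule.equivMapOfInjective E hEinj _).symm.finrank_eq

theorem natCard_eq_mul_of_fibres {α β : Type*} [Finite α] [Finite β] {r : α → β → Prop}
    (hex : ∀ a, ∃ b, r a b) (huniq : ∀ a b b', r a b → r a b' → b = b') {c : ℕ}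
    (hc : ∀ b, Nat.card {a // r a b} = c) : Nat.card α = c * Nat.card β := by
  classical
  haveI := Fintype.ofFinite β
  choose f hf using hex
  rw [← Nat.card_congr (Equiv.sigmaFiberEquiv f), Nat.card_sigma]
  have : ∀ b, Nat.card {a // f a = b} = c := fun b => by
    rw [← hc b]
    exact Nat.card_congr (Equiv.subtypeEquivRight fun a =>
      ⟨fun h => h ▸ hf a, fun h => huniq a _ _ (hf a) h⟩)
  rw [Finset.sum_congr rfl fun b _ => this b, Finset.sum_const, Finset.card_univ, smul_eq_mul,
    Nat.card_eq_fintype_card, mul_comm]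

variable {p : ℕ} {M : Ideal AlgInt} [M.IsPrime] [Fact p.Prime] [CharP (Block.ResF M) p]

/-- The members of a block with abelian defect group supplementing `N` take a nonzero value in
every coset. -/
theorem exists_ne_zero_coset (hM : IsPModular p M) {m : ℕ} (hm : N.index = p ^ m) {B : Blk M G}
    {P : Subgroup G} (hP : IsDef (blockSysTop M) p B P) (hab : ∀ x ∈ P, ∀ y ∈ P, x * y = y * x)
    (htop : N ⊔ P = ⊤) {χ : IrrCharacter G} (hχ : χ ∈ B.1) (g : G) :
    ∃ x : G, (x : G ⧸ N) = (g : G ⧸ N) ∧ (χ : G → ℂ) x ≠ 0 := by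
  obtain ⟨x, hx, hne⟩ := exists_lam_classSum_ne_zero hM hm hP hab htop g
  refine ⟨x, hx, fun h0 => hne ?_⟩
  show Block.lam M (blkChar M B : G → ℂ) (BrauerPairs.classSum (Block.ResF M) ⊤ x) = 0
  rw [classSum_top_eq, Block.lam_eq_of_sameBlock (blkChar M B).2 χ.2
      (Block.pBlock_sameBlock B.2 (blkChar_mem M B) hχ), Block.lam_classSum χ.2]
  rw [centralChar, h0]
  simp [Block.redC_zero]

end Cfsg.Agent.BlockCover
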