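import Cfsg.Agent.BlockVal.CoveringAll
import Cfsg.Agent.Block.Degrees
import Cfsg.Agent.CharInd.Induced

/-!
Sums of squares of degrees in the principal blocks of a group and of a normal subgroup.
-/

set_option autoImplicit false
set_option linter.style.haveILetI false

namespace Cfsg.Agent.BlockCover

open Cfsg
open scoped ComplexConjugate

universe u

variable {G : Type u} [Group G] [Fintype G] {p : ℕ} {M : Ideal AlgInt}

theorem principal_degree_square_sum (hM : IsPModular p M) (H : Subgroup G) [H.Normal] [Fintype H] :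
    (∑ᶠ θ ∈ principalBlock M H, charDegree (θ : H → ℂ) ^ 2) ≤
        (∑ᶠ χ ∈ principalBlock M G, charDegree (χ : G → ℂ) ^ 2) ∧
      (∑ᶠ χ ∈ principalBlock M G, charDegree (χ : G → ℂ) ^ 2) ≤
        H.index * ∑ᶠ θ ∈ principalBlock M H, charDegree (θ : H → ℂ) ^ 2 := by
  classical
  haveI : M.IsPrime := hM.2.1.isPrime
  set oneG : IrrCharacter G := ⟨fun _ => 1, Char.isIrrCharacter_const_one⟩ with honeG
  set oneH : IrrCharacter H := ⟨fun _ => 1, Char.isIrrCharacter_const_one⟩ with honeH
  set B := principalBlock M G with hBdef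
  set b := principalBlock M H with hbdef
  have hB : IsPBlock M B := ⟨oneG, rfl⟩
  have hb : IsPBlock M b := ⟨oneH, rfl⟩
  have h1B : oneG ∈ B := Block.mem_blockOf_self oneG
  have h1b : oneH ∈ b := Block.mem_blockOf_self oneH
  have h0 : classInner (fun n : H => (oneG : G → ℂ) n) (oneH : H → ℂ) ≠ 0 := by
    rw [show (fun n : H => (oneG : G → ℂ) n) = (oneH : H → ℂ) from rfl,
      Char.classInner_irr_self oneH.2]
    exact one_ne_zero
  choose m hm using fun (χ : IrrCharacter G) (θ : IrrCharacter H) =>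
    Char.isCharacter_classInner_nat (Char.isCharacter_restrict (Char.isCharacter_of_irr χ.2) H) θ
  have hbelow : ∀ χ ∈ B, ∀ η : IrrCharacter H, m χ η ≠ 0 → η ∈ b := by
    intro χ hχ η hη
    obtain ⟨x, hx, -⟩ := Brauer.exists_constituent_mem_of_congr H hM hb h1b χ
      (Brauer.centralChar_congr_of_covers H hM hB hb h1B h1b h0 hχ h1b) (η := η)
      (by rw [hm, Nat.cast_ne_zero]; exact hη)
    have h1 := Brauer.sameBlock_conjChar H (Block.pBlock_sameBlock hb h1b hx) x⁻¹
    rw [show ((Brauer.conjIrr H x η : IrrCharacter H) : H → ℂ) =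
      CharInd.conjChar H x (η : H → ℂ) from rfl, ← CharInd.conjChar_mul, mul_inv_cancel,
      CharInd.conjChar_one] at h1
    exact h1
  set s := B.toFinite.toFinset with hs
  set t := b.toFinite.toFinset with ht
  set dG : IrrCharacter G → ℕ := fun χ => charDegree (χ : G → ℂ) with hdG
  set dH : IrrCharacter H → ℕ := fun θ => charDegree (θ : H → ℂ) with hdH
  have hdeg : ∀ χ ∈ s, dG χ = ∑ θ ∈ t, m χ θ * dH θ := by
    intro χ hχ
    rw [hs, Set.Finite.mem_toFinset] at hχ
    have h1 := congrFun (Char.eq_sum_classInner_smul (Char.isCharacter_isClassFunction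
      (Char.isCharacter_restrict (Char.isCharacter_of_irr χ.2) H))) 1
    simp only [OneMemClass.coe_one, Finset.sum_apply, Pi.smul_apply, smul_eq_mul, hm,
      (Block.irr_one_eq_charDegree χ.2).1,
      fun θ : IrrCharacter H => (Block.irr_one_eq_charDegree θ.2).1] at h1
    have h2 : dG χ = ∑ θ, m χ θ * dH θ := by exact_mod_cast h1
    rw [h2]
    refine (Finset.sum_subset (Finset.subset_univ t) fun θ _ hθ => ?_).symm
    rw [ht, Set.Finite.mem_toFinset] at hθ
    rw [Nat.eq_zero_of_not_pos fun hp => hθ (hbelow χ hχ θ hp.ne'), zero_mul]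
  have hind : ∀ θ : IrrCharacter H, ∑ χ ∈ s, m χ θ * dG χ ≤ H.index * dH θ := by
    intro θ
    have h1 := congrFun (Char.eq_sum_classInner_smul (Char.isCharacter_isClassFunction
      (CharInd.isCharacter_indFun H (Char.isCharacter_of_irr θ.2)))) 1
    have h2 : ∀ χ : IrrCharacter G,
        classInner (indFun H (θ : H → ℂ)) (χ : G → ℂ) = (m χ θ : ℂ) := fun χ => by
      rw [CharInd.classInner_indFun_left H _ (Char.irr_isClassFunction χ.2),
        ← CharInd.classInner_swap, hm, map_natCast]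
    simp only [Finset.sum_apply, Pi.smul_apply, smul_eq_mul, CharInd.indFun_one_apply, h2,
      (Block.irr_one_eq_charDegree θ.2).1,
      fun χ : IrrCharacter G => (Block.irr_one_eq_charDegree χ.2).1] at h1
    have h3 : H.index * dH θ = ∑ χ, m χ θ * dG χ := by exact_mod_cast h1
    rw [h3]
    exact Finset.sum_le_sum_of_subset (Finset.subset_univ s)
  rw [finsum_mem_eq_finite_toFinset_sum _ b.toFinite, finsum_mem_eq_finite_toFinset_sum _ B.toFinite,
    ← hs, ← ht]
  constructor
  · have hle : ∀ χ ∈ s, ∑ θ ∈ t, (if m χ θ = 0 then 0 else dH θ ^ 2) ≤ dG χ ^ 2 := by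
      intro χ hχ
      calc ∑ θ ∈ t, (if m χ θ = 0 then 0 else dH θ ^ 2)
          ≤ ∑ θ ∈ t, (m χ θ * dH θ) * dG χ := by
            refine Finset.sum_le_sum fun θ hθ => ?_
            split_ifs with h
            · exact Nat.zero_le _
            · have h4 : dH θ ≤ m χ θ * dH θ := Nat.le_mul_of_pos_left _ (Nat.pos_of_ne_zero h)
              rw [sq]
              refine Nat.mul_le_mul h4 (h4.trans ?_)
              rw [hdeg χ hχ]
              exact Finset.single_le_sum (f := fun θ => m χ θ * dH θ) (fun i _ => Nat.zero_le _) hθ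
        _ = dG χ ^ 2 := by rw [← Finset.sum_mul, ← hdeg χ hχ, sq]
    calc ∑ θ ∈ t, dH θ ^ 2 ≤ ∑ θ ∈ t, ∑ χ ∈ s, (if m χ θ = 0 then 0 else dH θ ^ 2) := by
          refine Finset.sum_le_sum fun θ hθ => ?_
          rw [ht, Set.Finite.mem_toFinset] at hθ
          obtain ⟨χ, hχ, hχθ⟩ := CoverAll.covers_all H B hM hB hb h1b ⟨oneG, h1B, h0⟩ hθ
          rw [hm, Nat.cast_ne_zero] at hχθ
          calc dH θ ^ 2 = (if m χ θ = 0 then 0 else dH θ ^ 2) := by rw [if_neg hχθ]
            _ ≤ _ := Finset.single_le_sum (f := fun χ => if m χ θ = 0 then 0 else dH θ ^ 2)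
              (fun i _ => Nat.zero_le _) (by rw [hs, Set.Finite.mem_toFinset]; exact hχ)
      _ = ∑ χ ∈ s, ∑ θ ∈ t, (if m χ θ = 0 then 0 else dH θ ^ 2) := Finset.sum_comm
      _ ≤ ∑ χ ∈ s, dG χ ^ 2 := Finset.sum_le_sum hle
  · calc ∑ χ ∈ s, dG χ ^ 2 = ∑ χ ∈ s, ∑ θ ∈ t, dH θ * (m χ θ * dG χ) := by
          refine Finset.sum_congr rfl fun χ hχ => ?_
          rw [sq]
          nth_rw 1 [hdeg χ hχ]
          rw [Finset.sum_mul]
          exact Finset.sum_congr rfl fun θ _ => by ring
      _ = ∑ θ ∈ t, dH θ * ∑ χ ∈ s, m χ θ * dG χ := by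
          rw [Finset.sum_comm]
          simp only [Finset.mul_sum]
      _ ≤ ∑ θ ∈ t, dH θ * (H.index * dH θ) :=
          Finset.sum_le_sum fun θ _ => Nat.mul_le_mul_left _ (hind θ)
      _ = H.index * ∑ θ ∈ t, dH θ ^ 2 := by
          rw [Finset.mul_sum]
          exact Finset.sum_congr rfl fun θ _ => by ring

end Cfsg.Agent.BlockCover
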