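import Cfsg.Agent.BlockCover.Covers
import Cfsg.Agent.Brauer.Transport
import Cfsg.Agent.Block.Induced

/-!
Covering blocks and Brauer correspondence: the Harris–Knörr bijection.
-/

set_option autoImplicit false
set_option linter.unusedSectionVars false
set_option linter.style.haveILetI false

namespace Cfsg.Agent.BlockCover

open MonoidAlgebra BrauerPairs Cfsg

universe u

section Abstract

variable {G : Type u} [Group G] [Finite G] {k : Type*} [Field k] {p : ℕ} [Fact p.Prime]

/-- If `Q` is maximal among the `p`-subgroups of `N_N(Q)` centralizing `x`, the class of `x` under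
an overgroup `T` of `N` meets `C_G(Q)` in one class under `N_T(Q)`. -/
theorem trunc_classSum_eq {T N : Subgroup G} [N.Normal] (hNT : N ≤ T) {Q : Subgroup G}
    (hQ : IsPGroup p Q) (hQN : Q ≤ N) {x : G} (hx : x ∈ Subgroup.centralizer (Q : Set G))
    (hmax : ∀ R : Subgroup G, IsPGroup p R → Q < R → R ≤ N →
      R ≤ Subgroup.normalizer (Q : Set G) → x ∉ Subgroup.centralizer (R : Set G)) :
    trunc Q (classSum k T x) = classSum k (T ⊓ Subgroup.normalizer (Q : Set G)) x := by
  classical
  ext g
  by_cases hg : g ∈ Subgroup.centralizer (Q : Set G)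
  · rw [coeff_trunc_mem _ hg, coeff_classSum, coeff_classSum]
    simp only [Set.indicator_apply]
    refine if_congr ⟨?_, fun ⟨h, hh, he⟩ => ⟨h, hh.1, he⟩⟩ rfl rfl
    rintro ⟨y, hy, rfl⟩
    set C := N ⊓ Subgroup.centralizer ({x} : Set G) with hC
    have hQC : Q ≤ C := le_inf hQN (mem_centralizer_singleton_iff_of_le.1 hx)
    obtain ⟨P, hP⟩ := (hQ.of_equiv (Subgroup.subgroupOfEquivOfLe hQC).symm).exists_le_sylow
    have hPeq : (P : Subgroup C).map C.subtype = Q := by
      set P' := (P : Subgroup C).map C.subtype with hP'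
      have hQP : Q ≤ P' := fun z hz => ⟨⟨z, hQC hz⟩, hP (Subgroup.mem_subgroupOf.2 hz), rfl⟩
      have hPp : IsPGroup p P' := P.isPGroup'.map _
      have hPC : P' ≤ C := Subgroup.map_subtype_le _
      rcases hQP.eq_or_lt with h | h
      · exact h.symm
      · refine absurd ?_ (hmax _ (hPp.to_le inf_le_left) (lt_normalizer_inf hPp h)
          (inf_le_left.trans (hPC.trans inf_le_left)) inf_le_right)
        exact mem_centralizer_singleton_iff_of_le.2 (inf_le_left.trans (hPC.trans inf_le_right))
    have hle : Q.map (MulAut.conj y⁻¹).toMonoidHom ≤ C := by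
      refine le_inf ?_ ?_
      · rintro _ ⟨q, hq, rfl⟩
        exact ‹N.Normal›.conj_mem q (hQN hq) y⁻¹
      · rw [← mem_centralizer_singleton_iff_of_le, centralizer_map_conj, mem_map_conj_iff]
        simpa using hg
    obtain ⟨P₂, hP₂⟩ := ((hQ.map (MulAut.conj y⁻¹).toMonoidHom).of_equiv
      (Subgroup.subgroupOfEquivOfLe hle).symm).exists_le_sylow
    obtain ⟨c, hc⟩ := MulAction.exists_smul_eq C P P₂
    have hsub : Q.map (MulAut.conj y⁻¹).toMonoidHom ≤ Q.map (MulAut.conj (c : G)).toMonoidHom := by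
      intro r hr
      have hr' : (⟨r, hle hr⟩ : C) ∈ (P₂ : Subgroup C) := hP₂ (Subgroup.mem_subgroupOf.2 hr)
      rw [← hc] at hr'
      obtain ⟨s, hs, he⟩ := hr'
      exact ⟨(s : G), hPeq ▸ ⟨s, hs, rfl⟩, congrArg Subtype.val he⟩
    have heq := Subgroup.eq_of_le_of_card_ge hsub (by
      rw [Subgroup.card_map_of_injective (MulAut.conj (c : G)).injective,
        Subgroup.card_map_of_injective (MulAut.conj y⁻¹).injective])
    refine ⟨y * (c : G), ⟨T.mul_mem hy (hNT c.2.1), ?_⟩, ?_⟩
    · have hfix : Q.map (MulAut.conj (y * (c : G))).toMonoidHom = Q := by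
        rw [← map_conj_map_conj, ← heq]
        simpa using map_conj_inv_cancel Q y⁻¹
      refine Subgroup.mem_normalizer_iff.mpr fun z => ?_
      conv_rhs => rw [← hfix, mem_map_conj_iff]
      simp [mul_assoc]
    · have hcx : x * (c : G) = (c : G) * x := Subgroup.mem_centralizer_iff.1 c.2.2 x rfl
      calc y * (c : G) * x * (y * (c : G))⁻¹ = y * ((c : G) * x * (c : G)⁻¹) * y⁻¹ := by group
        _ = y * x * y⁻¹ := by rw [← hcx]; group
  · rw [coeff_trunc_notMem _ hg, coeff_classSum, Set.indicator_of_notMem]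
    rintro ⟨h, hh, rfl⟩
    exact hg (centralizer_conj_mem hh.2 hx)

variable [CharP k p]

/-- Two characters of the centre of `N_T(Q)` agreeing on the Brauer images agree on elements
concentrated on `Q`. -/
theorem lam_eq_of_trunc_agree {T N : Subgroup G} [N.Normal] (hNT : N ≤ T) {Q : Subgroup G}
    (hQ : IsPGroup p Q) (hQN : Q ≤ N) {H : Subgroup G}
    (hH : H = T ⊓ Subgroup.normalizer (Q : Set G)) {ι : Type*} [Fintype ι] (S : BlockSys k H ι)
    {i j : ι} (hagree : ∀ a, CentralIn T a → S.lam i (trunc Q a) = S.lam j (trunc Q a))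
    {w : MonoidAlgebra k G} (hw : CentralIn H w) (hwC : SuppIn (Subgroup.centralizer (Q : Set G)) w)
    (hwR : ∀ R : Subgroup G, IsPGroup p R → Q < R → R ≤ N →
      R ≤ Subgroup.normalizer (Q : Set G) → trunc R w = 0) :
    S.lam i w = S.lam j w := by
  classical
  obtain ⟨W, hW0, -, hW⟩ := exists_eq_sum_classSum hw.fixed
  have hWH : ∀ x ∈ W, x ∈ H := fun x hx => by_contra fun h => hW0 x hx (hw.supp x h)
  have hc : ∀ x ∈ W, CentralIn H (w.coeff x • classSum k H x) :=
    fun x hx => (centralIn_classSum (hWH x hx)).smul _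
  rw [hW, S.lam_sum i _ hc, S.lam_sum j _ hc]
  refine Finset.sum_congr rfl fun x hx => ?_
  rw [S.lam_smul i _ _ (centralIn_classSum (hWH x hx)),
    S.lam_smul j _ _ (centralIn_classSum (hWH x hx))]
  congr 1
  have hxC : x ∈ Subgroup.centralizer (Q : Set G) :=
    by_contra fun h => hW0 x hx (hwC x h)
  have hkey := trunc_classSum_eq (k := k) hNT hQ hQN hxC fun R hR hlt hRN hRn hxR => hW0 x hx (by
    rw [← coeff_trunc_mem w hxR, hwR R hR hlt hRN hRn]
    rfl)
  rw [← hH] at hkey
  rw [← hkey]
  exact hagree _ (centralIn_classSum ((hH ▸ hWH x hx : x ∈ T ⊓ _)).1)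

end Abstract

section Modular

variable {p : ℕ} {M : Ideal AlgInt} [M.IsPrime] {G : Type u} [Group G] [Finite G]

/-- The block of a subgroup at an element fixed by it sees only the Brauer image at a normal
`p`-subgroup of that subgroup. -/
theorem lam_eq_lam_trunc [Fact p.Prime] [CharP (Block.ResF M) p] {Q H : Subgroup G}
    (hQ : IsPGroup p Q) (hQH : Q ≤ H) (hHN : H ≤ Subgroup.normalizer (Q : Set G)) (c : Blk M H)
    {a : MonoidAlgebra (Block.ResF M) G} (ha : Fixed H a)
    (hs : ∀ g, g ∈ Subgroup.centralizer (Q : Set G) → a.coeff g ≠ 0 → g ∈ H) :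
    (blockSys M H).lam c a = (blockSys M H).lam c (trunc Q a) := by
  classical
  set a' := Block.incl H (Block.restr H a) with ha'
  have hc : Block.IsCentralElt (Block.restr H a) := fun g h => by
    simp only [Block.coeff_restr, Subgroup.coe_mul, Subgroup.coe_inv]
    exact ha h h.2 g
  have h1 : (blockSys M H).lam c a = (blockSys M H).lam c a' := by
    show Block.lam M _ (Block.restr H a) = Block.lam M _ (Block.restr H a')
    rw [ha', Block.restr_incl]
  have h2 : trunc Q a' = trunc Q a := by
    ext g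
    by_cases hg : g ∈ Subgroup.centralizer (Q : Set G)
    · rw [coeff_trunc_mem _ hg, coeff_trunc_mem _ hg, ha']
      by_cases hgH : g ∈ H
      · exact (Block.coeff_incl_coe H _ ⟨g, hgH⟩).trans (Block.coeff_restr H a ⟨g, hgH⟩)
      · rw [Block.coeff_incl_of_notMem H _ hgH]
        by_contra h
        exact hgH (hs g hg (Ne.symm h))
    · rw [coeff_trunc_notMem _ hg, coeff_trunc_notMem _ hg]
  rw [h1, ← (blockSys M H).lam_trunc hQ hQH hHN (centralIn_incl M hc) c, h2]

theorem lam_inducedIn {N L : Subgroup G} {e : Blk M L} {d : Blk M N} (hLN : L ≤ N)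
    (hind : IsInducedBlockIn M N L e.1 d.1) {a : MonoidAlgebra (Block.ResF M) G}
    (ha : CentralIn N a) : (blockSys M L).lam e a = (blockSys M N).lam d a := by
  classical
  haveI := Fintype.ofFinite G
  haveI := Fintype.ofFinite N
  haveI := Fintype.ofFinite L
  obtain ⟨W, hW0, -, hW⟩ := exists_eq_sum_classSum ha.fixed
  have hWN : ∀ x ∈ W, x ∈ N := fun x hx => by_contra fun h => hW0 x hx (ha.supp x h)
  have hK : ∀ x ∈ W, CentralIn N (classSum (Block.ResF M) N x) :=
    fun x hx => centralIn_classSum (hWN x hx)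
  have hKL : ∀ x ∈ W, Block.IsCentralElt (Block.restr L (classSum (Block.ResF M) N x)) :=
    fun x hx g h => by
      simp only [Block.coeff_restr, Subgroup.coe_mul, Subgroup.coe_inv]
      exact (hK x hx).fixed h (hLN h.2) g
  have hL : (blockSys M L).lam e (∑ x ∈ W, a.coeff x • classSum (Block.ResF M) N x) =
      ∑ x ∈ W, a.coeff x * (blockSys M L).lam e (classSum (Block.ResF M) N x) := by
    show Block.lam M _ (Block.restr L _) = _
    rw [map_sum, Block.lam_sum (blkChar M e).2 _ fun x hx => by
      rw [Block.restr_smul]; exact (hKL x hx).smul _]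
    exact Finset.sum_congr rfl fun x _ => by rw [Block.restr_smul, Block.lam_smul (blkChar M e).2]; rfl
  rw [hW, hL, (blockSys M N).lam_sum d _ fun x hx => (hK x hx).smul _]
  refine Finset.sum_congr rfl fun x hx => ?_
  rw [(blockSys M N).lam_smul d _ _ (hK x hx)]
  congr 1
  -- both sides as reductions of complex numbers
  set ξ := blkChar M e
  set χ := blkChar M d
  set xN : N := ⟨x, hWN x hx⟩
  set z : MonoidAlgebra (Block.localRing M) L :=
    Block.restr L (classSum (Block.localRing M) N x) with hz_def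
  have hz : Block.IsCentralElt z := fun g h => by
    simp only [hz_def, Block.coeff_restr, Subgroup.coe_mul, Subgroup.coe_inv]
    exact (centralIn_classSum (k := Block.localRing M) (hWN x hx)).fixed h (hLN h.2) g
  have hzF : Block.toF M z = Block.restr L (classSum (Block.ResF M) N x) := by
    rw [hz_def, Block.mapR_restr]
    congr 1
    exact mapRingHom_classSum (Block.red M) N x
  have hω : Block.omega (ξ : L → ℂ) (Block.toC M z) =
      inducedCentralCharIn N L (ξ : L → ℂ) x := by
    rw [Block.omega_eq_sum, inducedCentralCharIn, finsum_mem_eq_toFinset_sum, Finset.sum_div]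
    simp only [hz_def, Block.coeff_mapR, Block.coeff_restr, coeff_classSum, Set.indicator_apply,
      apply_ite (Subring.subtype (Block.localRing M)), map_one, map_zero, ite_mul, one_mul,
      zero_mul, ite_div, zero_div]
    rw [← Finset.sum_filter]
    refine Finset.sum_congr ?_ fun _ _ => rfl
    ext k
    simp only [Finset.mem_filter, Finset.mem_univ, true_and, Set.mem_toFinset, Set.mem_setOf_eq,
      classSet]
    constructor
    · rintro ⟨h, hh, he⟩
      exact ⟨⟨h⁻¹, N.inv_mem hh⟩, by
        show h⁻¹ * (k : G) * h⁻¹⁻¹ = x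
        rw [← he]; group⟩
    · rintro ⟨h, he⟩
      exact ⟨(h : G)⁻¹, N.inv_mem h.2, by rw [← he]; group⟩
  have hl : (blockSys M L).lam e (classSum (Block.ResF M) N x) =
      Block.redC M (inducedCentralCharIn N L (ξ : L → ℂ) x) := by
    show Block.lam M (ξ : L → ℂ) (Block.restr L (classSum (Block.ResF M) N x)) = _
    rw [← hzF, Block.lam_toF ξ.2 hz, hω]
  have hr : (blockSys M N).lam d (classSum (Block.ResF M) N x) =
      Block.redC M (centralChar (χ : N → ℂ) xN) := by
    show Block.lam M (χ : N → ℂ) (Block.restr N (classSum (Block.ResF M) N x)) = _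
    rw [← Block.lam_classSum χ.2 xN]
    congr 1
    apply Block.groupAlgebra_ext
    intro y
    rw [Block.coeff_restr, coeff_classSum, Block.coeff_classSum, Set.indicator_apply]
    refine if_congr ⟨fun ⟨h, hh, he⟩ => isConj_iff.2 ⟨⟨h, hh⟩, Subtype.ext he⟩, fun h => ?_⟩ rfl rfl
    obtain ⟨c, hc⟩ := isConj_iff.1 h
    exact ⟨c, c.2, congrArg Subtype.val hc⟩
  have hmem : MemLocalRing M (inducedCentralCharIn N L (ξ : L → ℂ) x) :=
    hω ▸ Block.omega_toC_memLocalRing ξ.2 hz
  rw [hl, hr, Block.redC_eq_iff hmem (Block.centralChar_memLocalRing χ.2 _)]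
  exact hind.2.2 ξ (blkChar_mem M e) χ (blkChar_mem M d) xN

/-- Covering inside a subgroup, with idempotents in the big group algebra. -/
theorem covers_sub_iff {L H : Subgroup G} (hLH : L ≤ H) (hHL : H ≤ Subgroup.normalizer (L : Set G))
    [Fintype L] (c : Blk M H) (e : Blk M L) :
    (∃ ψ ∈ c.1, ∃ ξ ∈ e.1, classInner
        (fun l : L => (ψ : H → ℂ) (Subgroup.inclusion hLH l)) (ξ : L → ℂ) ≠ 0) ↔
      (blockSys M H).idem c * (blockSys M L).idem e ≠ 0 := by
  classical
  haveI : (L.subgroupOf H).Normal := Subgroup.normal_subgroupOf_of_le_normalizer hHL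
  haveI := Fintype.ofFinite H
  haveI := Fintype.ofFinite (L.subgroupOf H)
  set φ := Subgroup.subgroupOfEquivOfLe hLH with hφ
  let e' : Blk M (L.subgroupOf H) :=
    ⟨Brauer.irrComp φ '' e.1, Brauer.isPBlock_image_irrComp φ e.2⟩
  have hcoef : ∀ x : L.subgroupOf H, blockCoeff e'.1 x = blockCoeff e.1 (φ x) := by
    intro x
    rw [Block.blockCoeff_eq_sum, Block.blockCoeff_eq_sum, Nat.card_congr φ.toEquiv]
    congr 1
    refine Finset.sum_equiv (Brauer.irrComp φ).symm (fun θ => ?_) fun θ _ => ?_
    · simp only [Finset.mem_filter, Finset.mem_univ, true_and]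
      show θ ∈ Brauer.irrComp φ '' e.1 ↔ _
      rw [Equiv.image_eq_preimage_symm]
      rfl
    · conv_lhs => rw [← (Brauer.irrComp φ).apply_symm_apply θ]
      rw [Brauer.coe_irrComp, Function.comp_apply, Function.comp_apply, map_one]
  have hidem : Block.incl H ((blockSys M (L.subgroupOf H)).idem e') = (blockSys M L).idem e := by
    apply Block.groupAlgebra_ext
    intro g
    by_cases hgH : g ∈ H
    · refine (Block.coeff_incl_coe H _ ⟨g, hgH⟩).trans ?_
      rw [coeff_blockSys_idem, coeff_blockSys_idem]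
      congr 1
      unfold subgroupBlockCoeff
      by_cases hgL : g ∈ L
      · rw [dif_pos hgL, dif_pos (show (⟨g, hgH⟩ : H) ∈ L.subgroupOf H from hgL), hcoef]
        rfl
      · rw [dif_neg hgL, dif_neg (show (⟨g, hgH⟩ : H) ∉ L.subgroupOf H from hgL)]
    · rw [Block.coeff_incl_of_notMem H _ hgH, ((blockSys M L).central_idem e).supp g
        fun h => hgH (hLH h)]
  have hinner : ∀ (ψ : IrrCharacter H) (ξ : IrrCharacter L),
      classInner (fun n : L.subgroupOf H => (ψ : H → ℂ) n) (Brauer.irrComp φ ξ : _ → ℂ) =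
        classInner (fun l : L => (ψ : H → ℂ) (Subgroup.inclusion hLH l)) (ξ : L → ℂ) := by
    intro ψ ξ
    unfold classInner
    rw [Nat.card_congr φ.toEquiv]
    congr 1
    exact Fintype.sum_equiv φ.toEquiv _ _ fun x => by
      simp only [Brauer.coe_irrComp, Function.comp_apply, MulEquiv.toEquiv_eq_coe,
        EquivLike.coe_coe]
      rfl
  have key : (blockSys M H).idem c * (blockSys M L).idem e =
      Block.incl H ((blockSysTop M).idem c * (blockSys M (L.subgroupOf H)).idem e') := by
    rw [map_mul, hidem]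
    rfl
  rw [key, Ne, map_eq_zero_iff _ (Block.incl_injective H), ← Ne,
    show ((blockSysTop M).idem c * (blockSys M (L.subgroupOf H)).idem e' ≠ 0) ↔ Covers c e' from Iff.rfl,
    covers_iff]
  refine exists_congr fun ψ => and_congr_right fun _ => ?_
  constructor
  · rintro ⟨ξ, hξ, h⟩
    exact ⟨Brauer.irrComp φ ξ, Set.mem_image_of_mem _ hξ, by rwa [hinner]⟩
  · rintro ⟨_, ⟨ξ, hξ, rfl⟩, h⟩
    exact ⟨ξ, hξ, by rwa [hinner] at h⟩

variable [Fact p.Prime] [CharP (Block.ResF M) p] {N : Subgroup G} [N.Normal] {Q : Subgroup G}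
  {d : Blk M N} {e : Blk M (Subgroup.normalizer (Q : Set G) ⊓ N : Subgroup G)}

/-- The Brauer image of a block is its correspondent. -/
theorem trunc_idem_eq_correspondent (hQ : IsPGroup p Q) (hQN : Q ≤ N)
    (heQ : IsDefIn p (Subgroup.normalizer (Q : Set G) ⊓ N)
      ((blockSys M (Subgroup.normalizer (Q : Set G) ⊓ N)).idem e) Q)
    (hed : IsInducedBlockIn M N (Subgroup.normalizer (Q : Set G) ⊓ N) e.1 d.1) :
    trunc Q ((blockSys M N).idem d) =
      (blockSys M (Subgroup.normalizer (Q : Set G) ⊓ N)).idem e := by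
  classical
  obtain ⟨L, hL⟩ : ∃ L : Subgroup G, L = Subgroup.normalizer (Q : Set G) ⊓ N := ⟨_, rfl⟩
  revert e
  rw [← hL]
  intro e heQ hed
  have hLN : L ≤ N := hL ▸ inf_le_right
  have hLn : L ≤ Subgroup.normalizer (Q : Set G) := hL ▸ inf_le_left
  have hQL : Q ≤ L := hL ▸ le_inf Subgroup.le_normalizer hQN
  set S := blockSys M L
  have hC : ∀ {a : MonoidAlgebra (Block.ResF M) G}, CentralIn N a → CentralIn L (trunc Q a) :=
    fun {a} ha => ⟨fun g hg => by
      by_cases hc : g ∈ Subgroup.centralizer (Q : Set G)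
      · rw [coeff_trunc_mem _ hc]
        exact ha.supp g fun hgN => hg (hL ▸ ⟨Subgroup.centralizer_le_normalizer _ hc, hgN⟩)
      · exact coeff_trunc_notMem _ hc, (ha.fixed.mono hLN).trunc hLn⟩
  have hed' : ∀ a, CentralIn N a → S.lam e (trunc Q a) = (blockSys M N).lam d a := fun a ha => by
    rw [← lam_inducedIn hLN hed ha]
    refine (lam_eq_lam_trunc hQ hQL hLn e (ha.fixed.mono hLN) fun g hg hne => ?_).symm
    exact hL ▸ ⟨Subgroup.centralizer_le_normalizer _ hg, by_contra fun h => hne (ha.supp g h)⟩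
  have hdc := (blockSys M N).central_idem d
  have hd2 := (blockSys M N).idem_mul_self d
  have hdQ : Fixed Q ((blockSys M N).idem d) := hdc.fixed.mono hQN
  have hti : trunc Q ((blockSys M N).idem d) * trunc Q ((blockSys M N).idem d) =
      trunc Q ((blockSys M N).idem d) := by rw [← trunc_mul hQ hdQ hdQ, hd2]
  conv_lhs => rw [S.eq_sum_idem (hC hdc) hti]
  have he1 : S.lam e (trunc Q ((blockSys M N).idem d)) = 1 := by
    rw [hed' _ hdc, (blockSys M N).lam_idem_self]
  refine Finset.sum_eq_single e (fun e' he' hne => ?_)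
    (fun h => absurd (Finset.mem_filter.2 ⟨Finset.mem_univ e, (he1 : _)⟩) h)
  exfalso
  have he'1 : S.lam e' (trunc Q ((blockSys M N).idem d)) = 1 := (Finset.mem_filter.1 he').2
  -- both agree with `d` on the image
  have hag : ∀ a, CentralIn N a → S.lam e' (trunc Q a) = S.lam e (trunc Q a) := by
    intro a ha
    rw [hed' a ha]
    set t := (blockSys M N).lam d a
    have hb : CentralIn N (a - t • (1 : MonoidAlgebra (Block.ResF M) G)) :=
      ha.sub (CentralIn.one.smul t)
    obtain ⟨n, hn⟩ := (blockSys M N).isNilpotent_sub_lam d ha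
    have hfb : Fixed Q ((blockSys M N).idem d * (a - t • (1 : MonoidAlgebra (Block.ResF M) G))) :=
      (hdc.mul hb).fixed.mono hQN
    have hm : CentralIn N ((blockSys M N).idem d * (a - t • (1 : MonoidAlgebra (Block.ResF M) G))) :=
      hdc.mul hb
    have hpow : ∀ l : ℕ, trunc Q (((blockSys M N).idem d *
        (a - t • (1 : MonoidAlgebra (Block.ResF M) G))) ^ l) = (trunc Q ((blockSys M N).idem d *
        (a - t • (1 : MonoidAlgebra (Block.ResF M) G)))) ^ l := by
      intro l
      induction l with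
      | zero => rw [pow_zero, pow_zero, trunc_one]
      | succ l ih => rw [pow_succ, pow_succ, trunc_mul hQ (hfb.pow l) hfb, ih]
    have hnil : IsNilpotent (trunc Q ((blockSys M N).idem d *
        (a - t • (1 : MonoidAlgebra (Block.ResF M) G)))) := ⟨n, by rw [← hpow, hn, map_zero]⟩
    have h0 := S.lam_eq_zero_of_isNilpotent e' (hC hm) hnil
    rw [trunc_mul hQ hdQ (hb.fixed.mono hQN), S.lam_mul e' _ _ (hC hdc) (hC hb), he'1, one_mul,
      map_sub, show trunc Q (t • (1 : MonoidAlgebra (Block.ResF M) G)) = t • 1 by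
        rw [trunc_eq_self_iff]
        exact fun g hg => by
          rw [coeff_smul, Finsupp.smul_apply, suppIn_one _ g hg, smul_zero],
      S.lam_sub e' (hC ha) (CentralIn.one.smul t), S.lam_smul e' _ _ CentralIn.one, S.lam_one,
      mul_one, sub_eq_zero] at h0
    exact h0
  have heq := lam_eq_of_trunc_agree (T := N) le_rfl hQ hQN (H := L) (by rw [hL, inf_comm]) S hag
    (S.central_idem e) (trunc_eq_self_iff.1 (trunc_idem_eq_self hQ hQL hLn (S.central_idem e)
      (S.idem_mul_self e))) fun R hR hlt hRN hRn => by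
    by_contra h0
    exact absurd (heQ.card_le (hL ▸ le_inf hRn hRN) hR h0) (not_le.2 (card_lt_of_lt hlt))
  rw [S.lam_idem_ne hne, S.lam_idem_self] at heq
  exact zero_ne_one heq

/-- A block of `N_G(Q)` inducing `B`. -/
theorem isInducedBlock_iff_lam (hQ : IsPGroup p Q) (c : Blk M (Subgroup.normalizer (Q : Set G)))
    (B : Blk M G) :
    IsInducedBlock M (Subgroup.normalizer (Q : Set G)) c.1 B.1 ↔
      ∀ a, CentralIn ⊤ a → (blockSys M (Subgroup.normalizer (Q : Set G))).lam c (trunc Q a) =
        (blockSysTop M).lam B a := by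
  classical
  haveI := Fintype.ofFinite G
  haveI := Fintype.ofFinite (Subgroup.normalizer (Q : Set G))
  have key : ∀ a, CentralIn ⊤ a → (blockSys M (Subgroup.normalizer (Q : Set G))).lam c (trunc Q a) =
      Block.lam M (blkChar M c : Subgroup.normalizer (Q : Set G) → ℂ)
        (Block.restr (Subgroup.normalizer (Q : Set G)) a) := fun a ha =>
    (lam_eq_lam_trunc hQ Subgroup.le_normalizer le_rfl c (ha.fixed.mono le_top)
      fun g hg _ => Subgroup.centralizer_le_normalizer _ hg).symm
  constructor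
  · intro h a ha
    rw [key a ha, Block.lam_restr_of_isInducedBlock h (blkChar_mem M c) (blkChar_mem M B)
      (isCentralElt_of_centralIn_top ha)]
    rfl
  · intro h
    refine Block.isInducedBlock_of_lam_restr c.2 B.2 (blkChar_mem M c) (blkChar_mem M B) fun g => ?_
    have hg := centralIn_top_of_isCentralElt (Block.classSum_isCentralElt (R := Block.ResF M) g)
    rw [← key _ hg, h _ hg]
    rfl

theorem centralIn_trunc_top {a : MonoidAlgebra (Block.ResF M) G} (ha : Fixed ⊤ a) :
    CentralIn (Subgroup.normalizer (Q : Set G)) (trunc Q a) :=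
  ⟨(suppIn_trunc _ _).mono (Subgroup.centralizer_le_normalizer _),
    (ha.mono le_top).trunc le_rfl⟩

theorem exists_induced (hM : IsPModular p M) (hQ : IsPGroup p Q) (c : Blk M (Subgroup.normalizer (Q : Set G))) :
    ∃ B : Blk M G, IsInducedBlock M (Subgroup.normalizer (Q : Set G)) c.1 B.1 := by
  classical
  haveI := Fintype.ofFinite G
  obtain ⟨B, hB⟩ := Block.inducedBlockDefined_of_brauer (p := p) (P := Q)
    (H := Subgroup.normalizer (Q : Set G)) hM hQ
    Subgroup.le_normalizer (Subgroup.centralizer_le_normalizer _) le_rfl c.2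
  exact ⟨⟨B, hB.2.1⟩, hB⟩

/-- A block of `N_G(Q)` covering the correspondent induces a block covering `d`. -/
theorem covers_of_induced (hQ : IsPGroup p Q) (hQN : Q ≤ N)
    (hde : trunc Q ((blockSys M N).idem d) =
      (blockSys M (Subgroup.normalizer (Q : Set G) ⊓ N)).idem e)
    {c : Blk M (Subgroup.normalizer (Q : Set G))} {B : Blk M G}
    (hind : IsInducedBlock M (Subgroup.normalizer (Q : Set G)) c.1 B.1)
    (hce : (blockSys M (Subgroup.normalizer (Q : Set G))).idem c *
      (blockSys M (Subgroup.normalizer (Q : Set G) ⊓ N)).idem e ≠ 0) : Covers B d := by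
  classical
  rw [covers_iff_lam, ← (isInducedBlock_iff_lam hQ c B).1 hind _ ⟨suppIn_top _, fixed_orbitSum d⟩]
  set S := blockSys M (Subgroup.normalizer (Q : Set G))
  have ho := centralIn_trunc_top (Q := Q) (fixed_orbitSum d)
  have hoQ : Fixed Q (orbitSum d) := (fixed_orbitSum d).mono le_top
  rcases S.mul_idem_cases c ho (by rw [← trunc_mul hQ hoQ hoQ, orbitSum_mul_self]) with
    ⟨-, h⟩ | ⟨h, -⟩
  · exfalso
    rw [(CentralIn.commute ho.fixed (S.central_idem c).supp).eq] at h
    apply hce
    rw [← hde, ← orbitSum_mul_idem d, trunc_mul hQ hoQ (((blockSys M N).central_idem d).fixed.mono hQN),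
      ← mul_assoc, h, zero_mul]
  · exact h

theorem exists_covering_inducing (hM : IsPModular p M) (hQ : IsPGroup p Q) (hQN : Q ≤ N)
    (hde : trunc Q ((blockSys M N).idem d) =
      (blockSys M (Subgroup.normalizer (Q : Set G) ⊓ N)).idem e)
    {B : Blk M G} (hcov : Covers B d) :
    ∃ c : Blk M (Subgroup.normalizer (Q : Set G)),
      IsInducedBlock M (Subgroup.normalizer (Q : Set G)) c.1 B.1 ∧
      (blockSys M (Subgroup.normalizer (Q : Set G))).idem c *
        (blockSys M (Subgroup.normalizer (Q : Set G) ⊓ N)).idem e ≠ 0 := by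
  classical
  set b := (blockSysTop M).idem B
  set S := blockSys M (Subgroup.normalizer (Q : Set G))
  have hB := (blockSysTop M).central_idem B
  have hd := (blockSys M N).central_idem d
  have hbQ : Fixed Q b := hB.fixed.mono le_top
  have hne : trunc Q b * (blockSys M (Subgroup.normalizer (Q : Set G) ⊓ N)).idem e ≠ 0 := by
    have hcomm : Commute b ((blockSys M N).idem d) := CentralIn.commute hB.fixed (suppIn_top _)
    rw [← hde, ← trunc_mul hQ hbQ (hd.fixed.mono hQN)]
    refine trunc_ne_zero_of_below (blockSys M N) d hQ hQN ?_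
      ((hB.fixed.mono le_top).mul hd.fixed) ?_ ?_ hcov
    · rw [hde]
      exact (blockSys M _).idem_ne_zero e
    · rw [hcomm.symm.mul_mul_mul_comm, (blockSysTop M).idem_mul_self, (blockSys M N).idem_mul_self]
    · rw [mul_assoc, (blockSys M N).idem_mul_self]
  obtain ⟨c, hc⟩ : ∃ c, S.idem c * (trunc Q b *
      (blockSys M (Subgroup.normalizer (Q : Set G) ⊓ N)).idem e) ≠ 0 := by
    by_contra hcon
    push Not at hcon
    apply hne
    rw [← one_mul (trunc Q b * _), ← S.sum_idem, Finset.sum_mul]
    exact Finset.sum_eq_zero fun c _ => hcon c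
  have hbc := centralIn_trunc_top (Q := Q) hB.fixed
  have hb2 : trunc Q b * trunc Q b = trunc Q b := by
    rw [← trunc_mul hQ hbQ hbQ, (blockSysTop M).idem_mul_self]
  rcases S.mul_idem_cases c hbc hb2 with ⟨-, h⟩ | ⟨h1, h⟩
  · rw [(CentralIn.commute hbc.fixed (S.central_idem c).supp).eq] at h
    exact absurd (by rw [← mul_assoc, h, zero_mul]) hc
  rw [(CentralIn.commute hbc.fixed (S.central_idem c).supp).eq] at h
  rw [← mul_assoc, h] at hc
  obtain ⟨B', hB'⟩ := exists_induced hM hQ c
  have hBB : B' = B := by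
    by_contra hne'
    rw [(isInducedBlock_iff_lam hQ c B').1 hB' _ hB, (blockSysTop M).lam_idem_ne hne'] at h1
    exact zero_ne_one h1
  exact ⟨c, hBB ▸ hB', hc⟩

/-- Two blocks of `N_G(Q)` inducing a block that covers `d` are equal. -/
theorem eq_of_induced_covering (hQ : IsPGroup p Q) (hQN : Q ≤ N)
    (hdQ : IsDefIn p N ((blockSys M N).idem d) Q) {B : Blk M G} (hcov : Covers B d)
    {c c' : Blk M (Subgroup.normalizer (Q : Set G))}
    (hc : IsInducedBlock M (Subgroup.normalizer (Q : Set G)) c.1 B.1)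
    (hc' : IsInducedBlock M (Subgroup.normalizer (Q : Set G)) c'.1 B.1) : c = c' := by
  classical
  by_contra hne
  set S := blockSys M (Subgroup.normalizer (Q : Set G))
  rw [covers_iff_lam] at hcov
  have ho := centralIn_trunc_top (Q := Q) (fixed_orbitSum d)
  have hot : ∀ {c₀ : Blk M (Subgroup.normalizer (Q : Set G))},
      IsInducedBlock M (Subgroup.normalizer (Q : Set G)) c₀.1 B.1 →
      S.lam c₀ (trunc Q (orbitSum d)) = 1 := fun {c₀} h => by
    rw [(isInducedBlock_iff_lam hQ c₀ B).1 h _ ⟨suppIn_top _, fixed_orbitSum d⟩, hcov]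
  set w := S.idem c * trunc Q (orbitSum d) with hw
  have hwc : CentralIn (Subgroup.normalizer (Q : Set G)) w := (S.central_idem c).mul ho
  have hidemC : SuppIn (Subgroup.centralizer (Q : Set G)) (S.idem c) :=
    trunc_eq_self_iff.1 (trunc_idem_eq_self hQ Subgroup.le_normalizer le_rfl (S.central_idem c)
      (S.idem_mul_self c))
  have h := lam_eq_of_trunc_agree (T := ⊤) (N := N) le_top hQ hQN
    (H := Subgroup.normalizer (Q : Set G)) (top_inf_eq _).symm S (i := c) (j := c')
    (fun a ha => by
      rw [(isInducedBlock_iff_lam hQ c B).1 hc a ha, (isInducedBlock_iff_lam hQ c' B).1 hc' a ha])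
    hwc (hidemC.mul (suppIn_trunc _ _)) fun R hR hlt hRN hRn => by
    have h0 : trunc R (orbitSum d) = 0 := by
      rw [orbitSum, map_sum]
      refine Finset.sum_eq_zero fun d' hd' => by_contra fun h0 => ?_
      obtain ⟨x, hx⟩ := mem_orbit.1 hd'
      have hRx : R.map (MulAut.conj x⁻¹).toMonoidHom ≤ N := by
        rintro _ ⟨r, hr, rfl⟩
        exact ‹N.Normal›.conj_mem r (hRN hr) x⁻¹
      refine absurd (hdQ.card_le hRx (hR.map _) fun h1 => h0 ?_) (not_le.2 ?_)
      · have e1 : (R.map (MulAut.conj x⁻¹).toMonoidHom).map (MulAut.conj x).toMonoidHom = R := by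
          simpa using map_conj_inv_cancel R x⁻¹
        rw [hx, ← e1, trunc_cj, h1, map_zero]
      · rw [Subgroup.card_map_of_injective (MulAut.conj x⁻¹).injective]
        exact card_lt_of_lt hlt
    rw [hw, trunc_mul hR ((S.central_idem c).fixed.mono hRn) (ho.fixed.mono hRn),
      trunc_trunc hlt.le, h0, mul_zero]
  rw [hw, S.lam_mul c _ _ (S.central_idem c) ho, S.lam_mul c' _ _ (S.central_idem c) ho,
    S.lam_idem_self, S.lam_idem_ne (Ne.symm hne), zero_mul, hot hc, one_mul] at h
  exact one_ne_zero h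

end Modular

end Cfsg.Agent.BlockCover
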