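import Cfsg.Agent.BlockCover.Solvable
import Cfsg.Agent.Block.FirstMain
import Cfsg.Agent.Char9.UniqueSingular
import Cfsg.Agent.CharDeep.Ratio
import Cfsg.Agent.Char.Linear
import Cfsg.Agent.PSolv.Cores
import Cfsg.Agent.S4436

/-!
# Heights in blocks of `p`-soluble groups are bounded by the central index of a defect group
-/

set_option linter.style.haveILetI false
set_option linter.unusedSectionVars false

namespace Cfsg.Agent.BlockCover

open Cfsg
open Cfsg.Agent.Block
open scoped ComplexConjugate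

universe u

/-- Above an invariant character, for an abelian `p`-quotient of a `p'`-group, degrees are prime
to `p`. -/
theorem not_dvd_degree_of_comm_quot {A : Type u} [Group A] [Fintype A] {p : ℕ} [hp : Fact p.Prime]
    (N : Subgroup A) [N.Normal] [Fintype N] (hcop : (Nat.card N).Coprime p) {k : ℕ}
    (hidx : N.index = p ^ k) (hcomm : ∀ a b : A ⧸ N, a * b = b * a) {φ : A → ℂ}
    (hφ : IsIrrCharacter A φ) {θ : N → ℂ} (hθ : IsIrrCharacter N θ)
    (h0 : classInner (fun n : N => φ n) θ ≠ 0)
    (hinv : ∀ g : A, g ∈ CharInd.conjStab N θ) : ¬ p ∣ charDegree φ := by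
  classical
  obtain ⟨ξ, hξ, hres⟩ := Char9.exists_extension N hcop hidx hθ hinv
  have hξN : IsIrrCharacter N (fun n : N => ξ n) := (funext hres) ▸ hθ
  have hlin : ∀ β : IrrCharacter (A ⧸ N), (β : A ⧸ N → ℂ) 1 = 1 :=
    fun β => Char.irr_degree_one_of_comm hcomm β.2
  obtain ⟨β, hβ⟩ : ∃ β : IrrCharacter (A ⧸ N),
      φ = ((β : A ⧸ N → ℂ) ∘ QuotientGroup.mk' N) * ξ := by
    by_contra hall
    simp only [not_exists] at hall
    apply h0
    have hsum : ∀ g : A, ∑ β : IrrCharacter (A ⧸ N), (β : A ⧸ N → ℂ) (QuotientGroup.mk' N g) =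
        if g ∈ N then (N.index : ℂ) else 0 := by
      intro g
      have h := Char.sum_irr_degree_mul (G := A ⧸ N) (QuotientGroup.mk' N g)
      simp only [hlin, one_mul] at h
      rw [h, Subgroup.index_eq_card]
      exact if_congr (QuotientGroup.eq_one_iff g) rfl rfl
    have hz : ∑ β : IrrCharacter (A ⧸ N),
        classInner φ (((β : A ⧸ N → ℂ) ∘ QuotientGroup.mk' N) * ξ) = 0 :=
      Finset.sum_eq_zero fun β _ => Char.classInner_irr_ne hφ
        (CharExt.isIrrCharacter_mul N ξ hξ hξN (Char9.infl_irr N β.2) (Char9.infl_inv N _)) (hall β)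
    rw [← Char.classInner_sum_right] at hz
    have hF : (∑ β : IrrCharacter (A ⧸ N), ((β : A ⧸ N → ℂ) ∘ QuotientGroup.mk' N) * ξ) =
        fun g => (if g ∈ N then (N.index : ℂ) else 0) * ξ g := by
      funext g
      rw [Finset.sum_apply, ← hsum g, Finset.sum_mul]
      rfl
    rw [hF, classInner] at hz
    have h1 : ∑ g : A, φ g * conj ((if g ∈ N then (N.index : ℂ) else 0) * ξ g) =
        (N.index : ℂ) * ∑ n : N, φ n * conj (θ n) := by
      rw [Finset.mul_sum, ← Finset.sum_subtype (Finset.univ.filter (· ∈ N)) (by simp)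
        (fun g => (N.index : ℂ) * (φ g * conj (ξ g))) |>.trans
        (Finset.sum_congr rfl fun n _ => by rw [hres]), Finset.sum_filter]
      refine Finset.sum_congr rfl fun g _ => ?_
      split_ifs
      · rw [map_mul, Complex.conj_natCast]; ring
      · simp
    rw [h1, mul_eq_zero, mul_eq_zero] at hz
    have h2 : ∑ n : N, φ n * conj (θ n) = 0 :=
      (hz.resolve_left (inv_ne_zero (Nat.cast_ne_zero.2 Nat.card_pos.ne'))).resolve_left
        (Nat.cast_ne_zero.2 Subgroup.index_ne_zero_of_finite)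
    rw [classInner, h2, mul_zero]
  obtain ⟨d, -, hd⟩ := Char.irr_one_pos hθ
  have h1 : φ 1 = (d : ℂ) := by
    rw [hβ, Pi.mul_apply, Function.comp_apply, map_one, hlin β, one_mul, ← hd, ← hres,
      OneMemClass.coe_one]
  rw [Char9.charDegree_eq h1]
  obtain ⟨d', -, hd', hdvd⟩ := Char.irr_degree_dvd_card hθ
  rw [Nat.cast_inj.1 (hd'.symm.trans hd)] at hdvd
  exact fun h => hp.out.not_dvd_one (hcop ▸ Nat.dvd_gcd (h.trans hdvd) dvd_rfl)

/-- The central index of a group is an isomorphism invariant. -/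
theorem center_index_congr {A B : Type*} [Group A] [Group B] [Finite A] (e : A ≃* B) :
    (Subgroup.center A).index = (Subgroup.center B).index := by
  haveI : Finite B := Finite.of_equiv A e.toEquiv
  have h1 := (Subgroup.center A).card_mul_index
  have h2 := (Subgroup.center B).card_mul_index
  rw [Nat.card_congr e.toEquiv, ← h2,
    show Nat.card (Subgroup.center A) = Nat.card (Subgroup.center B) from
      Nat.card_congr (Subgroup.centerCongr e).toEquiv] at h1
  exact Nat.eq_of_mul_eq_mul_left Nat.card_pos h1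

variable {p : ℕ} [Fact p.Prime] {M : Ideal AlgInt}

/-- The degree bound when the character of `O_{p'}` is invariant. -/
theorem degree_le_of_invariant {G : Type u} [Group G] [Fintype G] (hsolv : IsPSolvable p G)
    (N : Subgroup G) [N.Normal] [Fintype N] (hNdef : N = pPrimeCore p G) (θ : IrrCharacter N)
    (hinv : ∀ x : G, Brauer.conjIrr N x θ = θ) {χ : IrrCharacter G}
    (hθ : classInner (fun n : N => (χ : G → ℂ) n) (θ : N → ℂ) ≠ 0) {P : Subgroup G}
    (hP : Nat.card P = p ^ (Nat.card G).factorization p) :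
    (charDegree (χ : G → ℂ)).factorization p ≤ ((Subgroup.center P).index).factorization p := by
  classical
  have hp := (Fact.out : p.Prime)
  set Q := pCore p (G ⧸ N) with hQ
  haveI : Q.Normal := pCore_normal p _
  set Zc := (Subgroup.center Q).map Q.subtype with hZc
  haveI : Zc.Normal := ConjAct.normal_of_characteristic_of_normal
  set A := Zc.comap (QuotientGroup.mk' N) with hA
  haveI : A.Normal := (inferInstance : Zc.Normal).comap _
  have hNA : N ≤ A := QuotientGroup.le_comap_mk' N _
  letI := Fintype.ofFinite A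
  letI := Fintype.ofFinite (N.subgroupOf A)
  set e := Subgroup.subgroupOfEquivOfLe hNA with he
  have hcopN : (Nat.card N).Coprime p := by
    rw [hNdef]; exact (PSolv.coprime_card_pPrimeCore p G)
  -- the constituent on `A` has degree prime to `p`
  obtain ⟨ψ, hψθ, hψχ⟩ := exists_constituent_over hNA hθ
  have hidx : ∃ k, (N.subgroupOf A).index = p ^ k := by
    obtain ⟨k, hk⟩ := IsPGroup.iff_card.1
      ((PSolv.isPGroup_pCore p (G ⧸ N)).to_le (Subgroup.map_subtype_le _ : Zc ≤ Q))
    refine ⟨k, Nat.eq_of_mul_eq_mul_left (Nat.card_pos (α := N)) ?_⟩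
    rw [← hk, ← PSolv.card_comap_mk, ← hA, ← (N.subgroupOf A).card_mul_index,
      Nat.card_congr e.toEquiv]
  obtain ⟨k, hk⟩ := hidx
  have hcomm : ∀ a b : A ⧸ N.subgroupOf A, a * b = b * a := by
    intro a b
    obtain ⟨a, rfl⟩ := QuotientGroup.mk'_surjective _ a
    obtain ⟨b, rfl⟩ := QuotientGroup.mk'_surjective _ b
    rw [← map_mul, ← map_mul, QuotientGroup.mk'_eq_mk']
    refine ⟨(a * b)⁻¹ * (b * a), ?_, by group⟩
    rw [Subgroup.mem_subgroupOf, ← QuotientGroup.eq_one_iff (N := N)]
    obtain ⟨x, hx, hxa⟩ := a.2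
    obtain ⟨y, hy, hyb⟩ := b.2
    have hxy : Q.subtype x * Q.subtype y = Q.subtype y * Q.subtype x :=
      (congrArg Subtype.val (Subgroup.mem_center_iff.1 hy x))
    rw [hxa, hyb] at hxy
    simp only [Subgroup.coe_mul, Subgroup.coe_inv, QuotientGroup.mk_mul, QuotientGroup.mk_inv]
    rw [show ((a : G) : G ⧸ N) * (b : G) = (b : G) * (a : G) from hxy]
    group
  set θA := Brauer.irrComp e θ with hθA
  have hψθA : classInner (fun x : N.subgroupOf A => (ψ : A → ℂ) x) (θA : N.subgroupOf A → ℂ) ≠ 0 := by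
    rw [← classInner_res_equiv e] at hψθ
    exact hψθ
  have hinvA : ∀ g : A, g ∈ CharInd.conjStab (N.subgroupOf A) (θA : N.subgroupOf A → ℂ) := by
    intro g
    rw [CharInd.mem_conjStab]
    funext n
    rw [CharInd.conjChar_apply]
    have h1 := congrArg (fun φ : IrrCharacter N => (φ : N → ℂ) (e n)) (hinv (g : G))
    change CharInd.conjChar N (g : G) (θ : N → ℂ) (e n) = (θ : N → ℂ) (e n) at h1
    rw [CharInd.conjChar_apply] at h1
    exact h1
  have hψp : ¬ p ∣ charDegree (ψ : A → ℂ) := by
    refine not_dvd_degree_of_comm_quot (N.subgroupOf A) ?_ hk hcomm ψ.2 θA.2 hψθA hinvA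
    rwa [Nat.card_congr e.toEquiv]
  -- the ratio divides the index
  obtain ⟨hdvd, hratio⟩ := CharDeep.degree_ratio_dvd_index A χ.2 ψ.2 hψχ
    (irr_one_eq_charDegree χ.2).1 (irr_one_eq_charDegree ψ.2).1
  have hc : (charDegree (χ : G → ℂ)).factorization p ≤ A.index.factorization p := by
    have h1 : (charDegree (χ : G → ℂ)).factorization p =
        (charDegree (χ : G → ℂ) / charDegree (ψ : A → ℂ)).factorization p := by
      rw [Nat.factorization_div hdvd, Finsupp.tsub_apply,
        Nat.factorization_eq_zero_of_not_dvd hψp, Nat.sub_zero]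
    rw [h1]
    have hne : charDegree (χ : G → ℂ) / charDegree (ψ : A → ℂ) ≠ 0 :=
      (Nat.div_pos (Nat.le_of_dvd (irr_one_eq_charDegree χ.2).2.1 hdvd)
        (irr_one_eq_charDegree ψ.2).2.1).ne'
    exact (Nat.factorization_le_iff_dvd hne Subgroup.index_ne_zero_of_finite).2 hratio p
  -- the centre of a Sylow subgroup lies in `A`
  have hPS : Q ≤ P.map (QuotientGroup.mk' N) :=
    PSolv.pCore_le_sylow ((Sylow.ofCard P hP).mapSurjective (QuotientGroup.mk'_surjective N))
  have hO : pPrimeCore p (G ⧸ N) = ⊥ := by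
    subst hNdef
    exact PSolv.pPrimeCore_quotient_eq_bot p G
  have hZA : (Subgroup.center P).map P.subtype ≤ A := by
    rintro _ ⟨z, hz, rfl⟩
    have hcent : QuotientGroup.mk' N (z : G) ∈ Subgroup.centralizer (Q : Set (G ⧸ N)) := by
      intro u hu
      obtain ⟨x, hx, rfl⟩ := hPS hu
      rw [← map_mul, ← map_mul]
      exact congrArg (fun w : P => QuotientGroup.mk' N (w : G)) (Subgroup.mem_center_iff.1 hz ⟨x, hx⟩)
    have hzQ := PSolv.centralizer_pCore_le (PSolv.isPSolvable_quotient hsolv N) hO hcent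
    exact ⟨⟨_, hzQ⟩, Subgroup.mem_center_iff.2 fun u => Subtype.ext (hcent u u.2), rfl⟩
  have hZ : (Nat.card (Subgroup.center P)).factorization p ≤ (Nat.card A).factorization p := by
    have h1 := Subgroup.card_dvd_of_le hZA
    rw [Subgroup.card_map_of_injective (f := P.subtype) Subtype.val_injective] at h1
    exact (Nat.factorization_le_iff_dvd Nat.card_pos.ne' Nat.card_pos.ne').2 h1 p
  have e1 : (Nat.card (Subgroup.center P)).factorization p +
      (Subgroup.center P).index.factorization p = (Nat.card G).factorization p := by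
    rw [← Finsupp.add_apply, ← Nat.factorization_mul Nat.card_pos.ne'
      Subgroup.index_ne_zero_of_finite, (Subgroup.center P).card_mul_index, hP,
      hp.factorization_pow, Finsupp.single_eq_same]
  have e2 : (Nat.card A).factorization p + A.index.factorization p =
      (Nat.card G).factorization p := by
    rw [← Finsupp.add_apply, ← Nat.factorization_mul Nat.card_pos.ne'
      Subgroup.index_ne_zero_of_finite, A.card_mul_index]
  omega

/-- The height bound. -/
theorem height_le_center_index (hM : IsPModular p M) : ∀ (n : ℕ) {G : Type u} [Group G] [Fintype G],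
    Nat.card G = n → IsPSolvable p G → ∀ {B : Set (IrrCharacter G)}, IsPBlock M B →
    ∀ {P : Subgroup G}, IsDefectGroup p M B P → ∀ {χ : IrrCharacter G}, χ ∈ B →
    blockHeight p B (χ : G → ℂ) ≤ ((Subgroup.center P).index).factorization p := by
  intro n
  induction n using Nat.strong_induction_on with
  | _ n ih =>
  intro G _ _ hn hsolv B hB P hP χ hχ
  classical
  haveI : M.IsPrime := hM.2.1.isPrime
  set N := pPrimeCore p G with hNdef
  haveI hN : N.Normal := pPrimeCore_normal p G
  letI := Fintype.ofFinite N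
  have hpN : ¬ p ∣ Nat.card N := by
    rw [← (Fact.out : p.Prime).coprime_iff_not_dvd, hNdef]
    exact (PSolv.coprime_card_pPrimeCore p G).symm
  obtain ⟨θ, m, hm, hθ⟩ := Char.exists_irr_constituent
    (CharInd.isCharacter_res N (Char.isCharacter_of_irr χ.2))
    (fun h => Char.irr_one_ne_zero χ.2 (congrFun h 1))
  have hθ0 : classInner (fun n : N => (χ : G → ℂ) n) (θ : N → ℂ) ≠ 0 := by
    rw [hθ]; exact Nat.cast_ne_zero.2 hm.ne'
  by_cases hinv : ∀ x : G, Brauer.conjIrr N x θ = θ
  · obtain ⟨B₀, hB₀, hiff, hcard⟩ := block_over_pPrimeCore N hM hsolv hNdef θ hinv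
    obtain rfl := pBlock_eq_of_mem hB hB₀ hχ ((hiff χ).2 hθ0)
    exact (Nat.sub_le _ _).trans
      (degree_le_of_invariant hsolv N hNdef θ hinv hθ0 (hcard P hP))
  set b := blockOf M (θ : N → ℂ) with hbdef
  have hbs : b = {θ} := blockOf_eq_singleton hM hpN θ
  have hb : IsPBlock M b := isPBlock_blockOf θ
  set T := CharInd.conjStab N (θ : N → ℂ) with hTdef
  have hNT : N ≤ T := CharInd.le_conjStab N (Char.irr_isClassFunction θ.2)
  have hmem : ∀ g : G, g ∈ T ↔ ∀ η ∈ b, Brauer.conjIrr N g η ∈ b := by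
    intro g
    simp only [hbs, Set.mem_singleton_iff, forall_eq]
    exact ⟨fun h => Subtype.ext h, fun h => congrArg Subtype.val h⟩
  have hTne : T ≠ ⊤ := fun h => hinv fun x => Subtype.ext (h ▸ Subgroup.mem_top x : x ∈ T)
  letI := Fintype.ofFinite T
  have hcovB : ∃ χ' ∈ B, ∃ η ∈ b, classInner (fun n : N => (χ' : G → ℂ) n) (η : N → ℂ) ≠ 0 :=
    ⟨χ, hχ, θ, mem_blockOf_self θ, hθ0⟩
  obtain ⟨B', hB', hcov', hind⟩ := exists_inducing_block hNT hmem hM hb hB hcovB
  obtain ⟨hdef, hht⟩ := S4436.result p M hM N b hb T (fun g => by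
    rw [hmem g]
    refine ⟨fun h η hη η' hη' => ?_, fun h η hη => h η hη _ fun k => ?_⟩
    · rw [show η' = Brauer.conjIrr N g η from Subtype.ext (funext fun k => by
        rw [hη' k]; exact (CharInd.conjChar_apply N g (η : N → ℂ) k).symm)]
      exact h η hη
    · exact CharInd.conjChar_apply N g (η : N → ℂ) k) hNT B' hB' hcov' B hind
  obtain ⟨B₀, hind₀, -, hiff⟩ := induced_block hNT hmem hM hb hB' hcov'
  rw [← isInducedBlock_unique hind hind₀] at hiff
  obtain ⟨ψ, hψ, hχψ⟩ := (hiff χ).1 hχ
  obtain ⟨χ', -, hχ', hheq⟩ := hht ψ hψ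
  obtain rfl : χ' = χ := Subtype.ext (hχ'.trans hχψ.symm)
  obtain ⟨P', hP'⟩ := exists_isDefectGroup (p := p) (M := M) hB'
  obtain ⟨x, hx⟩ := isDefectGroup_exists_conj_eq hM hB (hdef P' hP') hP
  rw [hheq, ← hx, ← center_index_congr ((P'.equivMapOfInjective T.subtype Subtype.val_injective).trans
    ((P'.map T.subtype).equivMapOfInjective (MulAut.conj x).toMonoidHom (MulAut.conj x).injective))]
  refine ih (Nat.card T) ?_ rfl (PSolv.isPSolvable_subgroup hsolv T) hB' hP' hψ
  rw [← hn]
  exact lt_of_le_of_ne (Subgroup.card_le_card_group T) fun h => hTne (Subgroup.eq_top_of_card_eq _ h)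

end Cfsg.Agent.BlockCover
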