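import Cfsg.Agent.BlockCover.Root
import Cfsg.Agent.Brauer.CanonicalChar

/-!
# A height zero character with large inertia group
-/

set_option linter.style.haveILetI false
set_option linter.unusedSectionVars false

namespace Cfsg.Agent.BlockCover

open Cfsg
open Cfsg.Agent.Block

universe u

variable {G : Type u} [Group G] [Fintype G] {p : ℕ} [Fact p.Prime] {M : Ideal AlgInt}

open scoped Classical in
/-- An invariant block contains a height zero character with stabiliser of `p'`-index. -/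
theorem exists_height_zero_stab (hM : IsPModular p M) (N : Subgroup G) [N.Normal] [Fintype N]
    {b : Set (IrrCharacter N)} (hb : IsPBlock M b)
    (hinv : ∀ (x : G), ∀ θ ∈ b, Brauer.conjIrr N x θ ∈ b) :
    ∃ θ ∈ b, blockHeight p b (θ : N → ℂ) = 0 ∧ ¬ p ∣ (Brauer.conjStab N (θ : N → ℂ)).index := by
  haveI : M.IsPrime := hM.2.1.isPrime
  have hp := (Fact.out : p.Prime)
  set s := (blocks M G).filter fun B : Set (IrrCharacter G) => ∃ χ : IrrCharacter G, χ ∈ B ∧ ∃ θ ∈ b,
    classInner (fun n : N => (χ : G → ℂ) n) (θ : N → ℂ) ≠ 0 with hs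
  have hne : s.Nonempty := by
    obtain ⟨θ, hθ⟩ := pBlock_nonempty hb
    obtain ⟨χ, hχ⟩ := Brauer.exists_irr_over N θ
    exact ⟨_, Finset.mem_filter.2 ⟨mem_blocks_iff.2 (isPBlock_blockOf χ),
      χ, mem_blockOf_self χ, θ, hθ, hχ⟩⟩
  obtain ⟨B, hBs, hmax⟩ := Finset.exists_max_image s (blockDefect p) hne
  obtain ⟨hB1, hcov⟩ := Finset.mem_filter.1 hBs
  have hB := mem_blocks_iff.1 hB1
  obtain ⟨P, hP⟩ := exists_isDefectGroup (p := p) (M := M) hB
  obtain ⟨-, -, hdef⟩ := Brauer.fong N hM hb hinv hB hcov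
    (fun B' h' hc' => hmax B' (Finset.mem_filter.2 ⟨mem_blocks_iff.2 h', hc'⟩)) hP
  obtain ⟨χ₀, hχ₀⟩ := pBlock_nonempty hB
  obtain ⟨χ, hχ, hχmin⟩ := Nat.sInf_mem (s := (fun χ : IrrCharacter G =>
    (charDegree (χ : G → ℂ)).factorization p) '' B) ⟨_, χ₀, hχ₀, rfl⟩
  obtain ⟨θ, hθ, h0⟩ := exists_over_of_covers N hM hb hB hcov hχ
  obtain ⟨c, hc⟩ := Char.isCharacter_classInner_nat
    (CharInd.isCharacter_res N (Char.isCharacter_of_irr χ.2)) θ
  have hdeg : charDegree (χ : G → ℂ) =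
      c * ((CharInd.conjClass N (θ : N → ℂ)).card * charDegree (θ : N → ℂ)) := by
    have h1 := congrFun (CharInd.clifford N χ.2 θ.2 h0) 1
    have h2 : ∀ φ ∈ CharInd.conjClass N (θ : N → ℂ), φ 1 = (charDegree (θ : N → ℂ) : ℂ) := by
      intro φ hφ
      obtain ⟨x, rfl⟩ := (CharInd.mem_conjClass N).1 hφ
      rw [CharInd.conjChar_apply, ← (irr_one_eq_charDegree θ.2).1]
      exact congrArg _ (Subtype.ext (by simp))
    simp only [OneMemClass.coe_one, Pi.smul_apply, Finset.sum_apply, smul_eq_mul, hc,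
      Finset.sum_congr rfl h2, Finset.sum_const, nsmul_eq_mul,
      (irr_one_eq_charDegree χ.2).1] at h1
    exact_mod_cast h1
  have hd0 := (irr_one_eq_charDegree θ.2).2.1.ne'
  have hχ0 := (irr_one_eq_charDegree χ.2).2.1.ne'
  have hc0 : c ≠ 0 := fun h => hχ0 (by rw [hdeg, h, zero_mul])
  have hk0 : (CharInd.conjClass N (θ : N → ℂ)).card ≠ 0 := fun h => hχ0 (by
    rw [hdeg, h, zero_mul, mul_zero])
  have hv : (charDegree (χ : G → ℂ)).factorization p = c.factorization p +
      ((CharInd.conjClass N (θ : N → ℂ)).card.factorization p +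
        (charDegree (θ : N → ℂ)).factorization p) := by
    rw [hdeg, Nat.factorization_mul hc0 (mul_ne_zero hk0 hd0), Finsupp.add_apply,
      Nat.factorization_mul hk0 hd0, Finsupp.add_apply]
  have hθmin : sInf ((fun χ : IrrCharacter N => (charDegree (χ : N → ℂ)).factorization p) '' b) ≤
      (charDegree (θ : N → ℂ)).factorization p := Nat.sInf_le ⟨θ, hθ, rfl⟩
  have hvN : (charDegree (θ : N → ℂ)).factorization p ≤ (Nat.card N).factorization p :=
    (Nat.factorization_le_iff_dvd hd0 Nat.card_pos.ne').2 (irr_one_eq_charDegree θ.2).2.2 p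
  have hvG : (charDegree (χ : G → ℂ)).factorization p ≤ (Nat.card G).factorization p :=
    (Nat.factorization_le_iff_dvd hχ0 Nat.card_pos.ne').2 (irr_one_eq_charDegree χ.2).2.2 p
  have hG : (Nat.card G).factorization p =
      (Nat.card N).factorization p + N.index.factorization p := by
    rw [← N.card_mul_index, Nat.factorization_mul Nat.card_pos.ne'
      Subgroup.index_ne_zero_of_finite, Finsupp.add_apply]
  rw [blockDefect, blockDefect, ← hχmin, hG] at hdef
  refine ⟨θ, hθ, ?_, fun hdvd => ?_⟩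
  · rw [blockHeight]
    simp only at hdef
    omega
  · have h1 := Brauer.card_conjClass_mul_stab N (θ : N → ℂ)
    have h2 : (Brauer.conjStab N (θ : N → ℂ)).index = (CharInd.conjClass N (θ : N → ℂ)).card :=
      Nat.eq_of_mul_eq_mul_left (Nat.card_pos (α := Brauer.conjStab N (θ : N → ℂ)))
        (by rw [Subgroup.card_mul_index, mul_comm, h1])
    rw [h2] at hdvd
    have := hp.factorization_pos_of_dvd hk0 hdvd
    simp only at hdef
    omega

/-- The inertia statement relative to the stabiliser of the block. -/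
theorem exists_height_zero_inertia (hM : IsPModular p M) (H : Subgroup G) [H.Normal]
    (b : Set (IrrCharacter H)) (hb : IsPBlock M b) (T : Subgroup G)
    (hT : ∀ g : G, g ∈ T ↔ ∀ θ ∈ b, ∀ θ' : IrrCharacter H,
      (∀ h h' : H, (h' : G) = g * h * g⁻¹ → (θ' : H → ℂ) h' = (θ : H → ℂ) h) → θ' ∈ b) :
    ∃ θ ∈ b, blockHeight p b (θ : H → ℂ) = 0 ∧ ∃ S : Subgroup G, S ≤ T ∧
      (∀ g : G, g ∈ S ↔ (g ∈ T ∧ ∀ h h' : H, (h' : G) = g * h * g⁻¹ →
        (θ : H → ℂ) h' = (θ : H → ℂ) h)) ∧ ¬ p ∣ S.relIndex T := by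
  classical
  haveI : M.IsPrime := hM.2.1.isPrime
  letI := Fintype.ofFinite H
  letI := Fintype.ofFinite T
  have hconj : ∀ (g : G) (θ : IrrCharacter H) (h h' : H), (h' : G) = g * h * g⁻¹ →
      (Brauer.conjIrr H g⁻¹ θ : H → ℂ) h' = (θ : H → ℂ) h := fun g θ h h' e => by
    show CharInd.conjChar H g⁻¹ (θ : H → ℂ) h' = _
    rw [CharInd.conjChar_apply]
    refine congrArg _ (Subtype.ext ?_)
    show g⁻¹ * (h' : G) * g⁻¹⁻¹ = (h : G)
    rw [e]; group
  have hmem : ∀ g ∈ T, ∀ θ ∈ b, Brauer.conjIrr H g⁻¹ θ ∈ b := fun g hg θ hθ =>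
    (hT g).1 hg θ hθ _ (hconj g θ)
  have hHT : H ≤ T := fun g hg => (hT g).2 fun θ hθ θ' hθ' => by
    rwa [show θ' = θ from Subtype.ext (funext fun h' => ?_)]
    have h1 := hθ' ((⟨g, hg⟩ : H)⁻¹ * h' * ⟨g, hg⟩) h' (by simp [mul_assoc])
    rw [h1]
    have h2 := Char.irr_isClassFunction θ.2 h' (⟨g, hg⟩ : H)⁻¹
    rwa [inv_inv] at h2
  letI := Fintype.ofFinite (H.subgroupOf T)
  set e := Subgroup.subgroupOfEquivOfLe hHT with he
  obtain ⟨_, ⟨θ, hθ, rfl⟩, hh, hidx⟩ := exists_height_zero_stab hM (H.subgroupOf T)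
    (Brauer.isPBlock_image_irrComp e hb) (by
      rintro x _ ⟨θ, hθ, rfl⟩
      refine ⟨Brauer.conjIrr H ((x : G)⁻¹)⁻¹ θ, hmem _ (inv_mem x.2) θ hθ,
        Subtype.ext (funext fun n => ?_)⟩
      show CharInd.conjChar H ((x : G)⁻¹)⁻¹ (θ : H → ℂ) (e n) =
        CharInd.conjChar (H.subgroupOf T) x (Brauer.irrComp e θ : H.subgroupOf T → ℂ) n
      rw [inv_inv, CharInd.conjChar_apply, CharInd.conjChar_apply]
      rfl)
  set S' := Brauer.conjStab (H.subgroupOf T) (Brauer.irrComp e θ : H.subgroupOf T → ℂ) with hS'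
  refine ⟨θ, hθ, ?_, S'.map T.subtype, Subgroup.map_subtype_le _, fun g => ?_, ?_⟩
  · unfold blockHeight at hh ⊢
    rw [Set.image_image] at hh
    have hd : ∀ η : IrrCharacter H, charDegree (Brauer.irrComp e η : H.subgroupOf T → ℂ) =
        charDegree (η : H → ℂ) := fun η => by
      unfold charDegree
      rw [Brauer.coe_irrComp, Function.comp_apply, map_one]
    simpa only [hd] using hh
  · constructor
    · rintro ⟨x, hx, rfl⟩
      refine ⟨x.2, fun h h' hh' => ?_⟩
      have h1 := congrFun (show CharInd.conjChar (H.subgroupOf T) x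
        (Brauer.irrComp e θ : H.subgroupOf T → ℂ) = _ from hx) (e.symm h)
      rw [CharInd.conjChar_apply] at h1
      change (θ : H → ℂ) (e _) = (θ : H → ℂ) (e (e.symm h)) at h1
      rw [e.apply_symm_apply] at h1
      rw [← h1]
      exact congrArg _ (Subtype.ext hh')
    · rintro ⟨hg, hfix⟩
      refine ⟨⟨g, hg⟩, funext fun n => ?_, rfl⟩
      rw [CharInd.conjChar_apply]
      exact hfix (e n) _ rfl
  · rwa [Subgroup.relIndex, Subgroup.subgroupOf,
      Subgroup.comap_map_eq_self_of_injective T.subtype_injective]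

end Cfsg.Agent.BlockCover
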