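import Cfsg.Agent.BlockVal.SectionCount
import Cfsg.Agent.BlockCover.VanishLift
import Cfsg.Agent.BrauerPairs.RankOne
import Cfsg.Agent.Brauer.Projective

/-!
# Signed columns of a block with four characters on the singular elements, for `p = 2`
-/

set_option linter.style.haveILetI false
set_option linter.unusedSectionVars false
set_option maxHeartbeats 1000000

namespace Cfsg.Agent.KleinIso

open Cfsg MonoidAlgebra
open Cfsg.Agent.Block
open scoped ComplexConjugate
open Cfsg.Agent.Brauer (regSum)

universe u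

variable {G : Type u} [Group G] [Fintype G] {M : Ideal AlgInt}

open scoped Classical in
/-- A vector of signs on `B`, orthogonal to the regular parts of the members. -/
structure IsSignVec (B : Set (IrrCharacter G)) (a : IrrCharacter G → ℤ) : Prop where
  unit : ∀ χ ∈ B, a χ = 1 ∨ a χ = -1
  orth : ∀ y : G, ¬ 2 ∣ orderOf y →
    ∑ χ ∈ Finset.univ.filter (· ∈ B), (a χ : ℂ) * (χ : G → ℂ) y = 0

open scoped Classical in
/-- The members of `B` are combined from sign vectors at every singular element. -/
def HasSignData (M : Ideal AlgInt) (B : Set (IrrCharacter G)) : Prop :=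
  ∀ x : G, 2 ∣ orderOf x → ∃ (ι : Type u) (_ : Fintype ι) (a : ι → IrrCharacter G → ℤ) (w : ι → ℂ),
    (∀ i, IsSignVec B (a i)) ∧ (∀ χ ∈ B, (χ : G → ℂ) x = ∑ i, (a i χ : ℂ) * w i) ∧
      ∀ i, MemLocalRing M (w i) ∧
        MemLocalRing M (4 * w i / (Nat.card (Subgroup.centralizer ({x} : Set G)) : ℂ))

/-- Divisibility by the `p`-part is divisibility. -/
theorem memLocalRing_div_of_pPart {p : ℕ} (hM : IsPModular p M) [M.IsPrime] {z : ℂ} {n : ℕ}
    (hn : n ≠ 0) (h : MemLocalRing M (z / ((p ^ n.factorization p : ℕ) : ℂ))) :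
    MemLocalRing M (z / (n : ℂ)) := by
  have h2 : ¬ p ∣ n / p ^ n.factorization p := Nat.not_dvd_ordCompl hM.1 hn
  have e : z / (n : ℂ) = z / ((p ^ n.factorization p : ℕ) : ℂ) *
      (((n / p ^ n.factorization p : ℕ) : ℂ))⁻¹ := by
    conv_lhs => rw [← Nat.ordProj_mul_ordCompl_eq_self n p]
    rw [Nat.cast_mul]
    simp only [div_eq_mul_inv, mul_inv]
    ring
  rw [e]
  exact (localRing M).mul_mem h (memLocalRing_natCast_inv hM h2)

section

variable {p : ℕ} {u : G} {k : ℕ} {C : Subgroup G} [Fintype C]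

/-- The part, in a block not inducing `B`, of a member of `B` vanishes on the section. -/
theorem section_part_eq_zero (hM : IsPModular p M) (hu : orderOf u = p ^ k)
    (hC : C = Subgroup.centralizer ({u} : Set G))
    {b : Set (IrrCharacter C)} {B' : Set (IrrCharacter G)} (hind : IsInducedBlock M C b B')
    [DecidablePred (· ∈ b)]
    {χ : IrrCharacter G} (hχ : χ ∉ B') {ω : IrrCharacter C → ℂ}
    (hω : ∀ (η : IrrCharacter C) (x : C),
      (η : C → ℂ) (⟨u, SecCount.mem_C hC⟩ * x) = ω η * (η : C → ℂ) x)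
    {y : C} (hy : ¬ p ∣ orderOf y) :
    ∑ η ∈ Finset.univ.filter (· ∈ b),
      classInner (fun c : C => (χ : G → ℂ) c) (η : C → ℂ) * ω η * (η : C → ℂ) y = 0 := by
  classical
  haveI : M.IsPrime := hM.2.1.isPrime
  haveI : Fact p.Prime := ⟨hM.1⟩
  set uC : C := ⟨u, SecCount.mem_C hC⟩ with huC
  set ψ : C → ℂ := fun c => (χ : G → ℂ) c with hψdef
  have hψ : IsClassFunction C ψ :=
    fun g x => by simpa [hψdef] using Char.irr_isClassFunction χ.2 (g : G) (x : G)
  set a : IrrCharacter C → ℂ := fun η => classInner ψ (η : C → ℂ) with ha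
  have hdec : ∀ w : C, (χ : G → ℂ) w = ∑ η : IrrCharacter C, a η * (η : C → ℂ) w := by
    intro w
    have := congrFun (Char.eq_sum_classInner_smul hψ) w
    rw [Finset.sum_apply] at this
    simpa [hψdef, ha] using this
  have hh : Element.pPart p ((uC * y : C) : G) = u :=
    (Brauer.orderOf_mul_coprime_parts hu (y := (y : G))
      (by rwa [Subgroup.orderOf_coe]) (SecCount.commute_C hC y)).1
  have h0 := charLin_single_mul_incl_idem_eq_zero hM hind (h := uC * y) (by rw [hh, hC]) hχ
  rw [charLin_single_mul_incl (Char.irr_isClassFunction χ.2)] at h0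
  have e1 : ∀ η : IrrCharacter C,
      ∑ c : C, (blockIdem b).coeff c * (η : C → ℂ) (c * (uC * y))
        = (if η ∈ b then 1 else 0) * (η : C → ℂ) (uC * y) := by
    intro η
    have h1 := charLin_central_mul η.2 (blockIdem_isCentralElt b) (single (uC * y) 1)
    rw [omega_blockIdem, charLin_single, one_mul] at h1
    rw [← h1]
    conv_rhs => rw [← MonoidAlgebra.sum_single (blockIdem b)]
    rw [Finsupp.sum_fintype, Finset.sum_mul, map_sum]
    · refine Finset.sum_congr rfl fun c _ => ?_
      rw [single_mul_single, charLin_single, mul_one]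
    · intro i; simp
  have e2 : ∑ c : C, (blockIdem b).coeff c * (χ : G → ℂ) ((c : G) * ((uC * y : C) : G))
      = ∑ η : IrrCharacter C, a η * ∑ c : C, (blockIdem b).coeff c * (η : C → ℂ) (c * (uC * y)) := by
    simp only [Finset.mul_sum]
    rw [Finset.sum_comm]
    refine Finset.sum_congr rfl fun c _ => ?_
    rw [← Subgroup.coe_mul, hdec, Finset.mul_sum]
    exact Finset.sum_congr rfl fun η _ => by ring
  rw [e2] at h0
  rw [Finset.sum_filter]
  refine Eq.trans ?_ h0
  refine Finset.sum_congr rfl fun η _ => ?_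
  rw [e1, hω]
  split_ifs <;> ring

end

/-- Four integers with square sum four, orthogonal to a vector without zero entries, are signs. -/
theorem sign_of_sq_sum_four {α : Type*} [DecidableEq α] (S : Finset α) (hS : S.card = 4)
    (a : α → ℤ) (f : α → ℂ) (hsq : ∑ i ∈ S, a i ^ 2 = 4)
    (horth : ∑ i ∈ S, (a i : ℂ) * f i = 0) (hf : ∀ i ∈ S, f i ≠ 0) :
    ∀ i ∈ S, a i = 1 ∨ a i = -1 := by
  have hle1 : ∀ i ∈ S, a i ^ 2 ≤ 1 := by
    intro i hi
    have h4 : a i ^ 2 ≤ 4 := by
      rw [← hsq]; exact Finset.single_le_sum (fun j _ => sq_nonneg (a j)) hi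
    have hne : a i ^ 2 ≠ 4 := by
      intro h
      have h2 : ∑ j ∈ S.erase i, a j ^ 2 = 0 := by
        have h3 : a i ^ 2 + ∑ j ∈ S.erase i, a j ^ 2 = ∑ j ∈ S, a j ^ 2 :=
          Finset.add_sum_erase S (fun j => a j ^ 2) hi
        omega
      have hrest : ∀ j ∈ S, j ≠ i → a j = 0 := fun j hj hne =>
        (pow_eq_zero_iff two_ne_zero).1
          ((Finset.sum_eq_zero_iff_of_nonneg (fun j _ => sq_nonneg (a j))).1 h2 j
            (Finset.mem_erase.2 ⟨hne, hj⟩))
      rw [Finset.sum_eq_single i (fun j hj hne => by rw [hrest j hj hne]; simp)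
        (fun h' => absurd hi h')] at horth
      rcases mul_eq_zero.1 horth with h1 | h1
      · rw [Int.cast_eq_zero.1 h1] at h
        norm_num at h
      · exact hf i hi h1
    have h2 : a i ≤ 2 := by nlinarith
    have h3 : -2 ≤ a i := by nlinarith
    interval_cases h6 : a i <;> norm_num at hne <;> norm_num
  intro i hi
  refine sq_eq_one_iff.1 ((Finset.sum_eq_sum_iff_of_le hle1).1 ?_ i hi)
  rw [hsq, Finset.sum_const, hS]; rfl

/-- The sign data of a block with four members, all whose subsections have rank one and defect two. -/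
theorem hasSignData (hM : IsPModular 2 M) {B : Set (IrrCharacter G)} (hB : IsPBlock M B)
    (h4 : Nat.card B = 4)
    (hsub : ∀ u : G, u ≠ 1 → ∀ k : ℕ, orderOf u = 2 ^ k →
      ∀ b : Set (IrrCharacter (Subgroup.centralizer ({u} : Set G))),
        IsInducedBlock M (Subgroup.centralizer ({u} : Set G)) b B →
          u * u = 1 ∧ blockRank 2 b = 1 ∧ blockDefect 2 b = 2) :
    HasSignData M B := by
  classical
  haveI : M.IsPrime := hM.2.1.isPrime
  haveI : Fact (Nat.Prime 2) := ⟨Nat.prime_two⟩
  intro x hx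
  set u := Element.pPart 2 x with hudef
  obtain ⟨k, hk⟩ : ∃ k, orderOf u = 2 ^ k := ⟨_, Element.orderOf_pPart_eq_pow Nat.prime_two x⟩
  have hscop := Element.coprime_orderOf_pComplPart Nat.prime_two x
  have hu1 : u ≠ 1 := fun h => by
    have h1 := Element.pPart_mul_pComplPart 2 x
    rw [← hudef, h, one_mul] at h1
    rw [h1] at hscop
    exact (Nat.prime_two.coprime_iff_not_dvd.1 hscop.symm) hx
  set C := Subgroup.centralizer ({u} : Set G) with hC
  haveI := Fintype.ofFinite C
  set s : C := ⟨Element.pComplPart 2 x, Subgroup.mem_centralizer_singleton_iff.2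
    (Element.commute_pPart_pComplPart 2 x).symm⟩ with hsdef
  have hs : ¬ 2 ∣ orderOf s := by
    rw [← Subgroup.orderOf_coe]; exact Nat.prime_two.coprime_iff_not_dvd.1 hscop.symm
  have hxus : u * (s : G) = x := Element.pPart_mul_pComplPart 2 x
  set uC : C := ⟨u, SecCount.mem_C hC⟩ with huC
  have hucen : uC ∈ Subgroup.center C := Subgroup.mem_center_iff.mpr fun w =>
    Subtype.ext (SecCount.commute_C hC w).symm
  choose om hom1 hom2 hom3 using fun η : IrrCharacter C => Char.irr_mul_center η.2 hucen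
  set ι := {b : Set (IrrCharacter C) // IsInducedBlock M C b B} with hι
  haveI : Fintype ι := Fintype.ofFinite ι
  have hrk : ∀ b : ι, u * u = 1 ∧ blockRank 2 b.1 = 1 ∧ blockDefect 2 b.1 = 2 :=
    fun b => hsub u hu1 k hk b.1 b.2
  choose φ d n hφ hd hT using fun b : ι =>
    BrauerPairs.exists_rank_one_data (G := C) hM b.2.1 (hrk b).2.1
  have hdne : ∀ (b : ι), ∀ η ∈ b.1, d b η ≠ 0 := by
    intro b η hη h
    have := hd b η hη 1 (by rw [orderOf_one]; exact Nat.prime_two.not_dvd_one)
    rw [h, Nat.cast_zero, zero_mul] at this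
    exact Char.irr_one_ne_zero η.2 this
  choose m hm using fun (χ : IrrCharacter G) (η : IrrCharacter C) =>
    Char.isCharacter_classInner_nat
      (Char.isCharacter_comp (Char.isCharacter_of_irr χ.2) C.subtype) η
  set sg : IrrCharacter C → ℤ := fun η => if om η = 1 then 1 else -1 with hsg
  have hom : ∀ b : ι, ∀ η : IrrCharacter C, om η = (sg η : ℂ) := by
    intro b η
    have hsq : uC * uC = 1 := Subtype.ext (hrk b).1
    have h1 : om η * om η = 1 := by
      have h := hom3 η uC
      rw [hsq, hom2 η, ← mul_assoc] at h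
      exact (mul_right_cancel₀ (Char.irr_one_ne_zero η.2) (h.symm.trans (one_mul _).symm))
    rcases mul_self_eq_one_iff.1 h1 with h2 | h2
    · rw [hsg]; simp [h2]
    · rw [hsg]
      have : ¬ om η = 1 := by rw [h2]; norm_num
      simp [this, h2]
  set a : ι → IrrCharacter G → ℤ := fun b χ =>
    ∑ η ∈ Finset.univ.filter (· ∈ b.1), (m χ η : ℤ) * sg η * (d b η : ℤ) with ha
  -- the section of a member
  have hF : ∀ (χ : IrrCharacter G) (y : C), (χ : G → ℂ) (u * (y : G)) =
      ∑ η : IrrCharacter C, (m χ η : ℂ) * om η * (η : C → ℂ) y := by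
    intro χ y
    have hψ : IsClassFunction C (fun c : C => (χ : G → ℂ) c) :=
      fun g x => by simpa using Char.irr_isClassFunction χ.2 (g : G) (x : G)
    have h := congrFun (Char.eq_sum_classInner_smul hψ) (uC * y)
    rw [Finset.sum_apply] at h
    rw [show u * (y : G) = ((uC * y : C) : G) from rfl, h]
    refine Finset.sum_congr rfl fun η _ => ?_
    rw [Pi.smul_apply, smul_eq_mul, hom3, show classInner (fun c : C => (χ : G → ℂ) c) (η : C → ℂ)
      = (m χ η : ℂ) from hm χ η]
    ring
  have hdef : ∀ θ : IrrCharacter C, ∃ B' : Set (IrrCharacter G),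
      IsInducedBlock M C (blockOf M (θ : C → ℂ)) B' := by
    intro θ
    have hPg : IsPGroup 2 (Subgroup.zpowers u) :=
      IsPGroup.of_card (n := k) (by rw [Nat.card_zpowers, hk])
    have hCP : Subgroup.centralizer (Subgroup.zpowers u : Set G) = C :=
      (Brauer.centralizer_zpowers_eq u).trans hC.symm
    exact inducedBlockDefined_of_brauer hM hPg (Subgroup.zpowers_le.mpr (SecCount.mem_C hC)) hCP.le
      (hCP ▸ Subgroup.centralizer_le_normalizer _) (isPBlock_blockOf θ)
  have hval : ∀ χ ∈ B, ∀ y : C, ¬ 2 ∣ orderOf y →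
      (χ : G → ℂ) (u * (y : G)) = ∑ b : ι, (a b χ : ℂ) * φ b y := by
    intro χ hχ y hy
    rw [hF, ← Finset.sum_fiberwise_of_maps_to (t := blocks M C)
      (g := fun η : IrrCharacter C => blockOf M (η : C → ℂ))
      (fun η _ => mem_blocks_iff.2 ⟨η, rfl⟩)]
    have hfib : ∀ β ∈ blocks M C, Finset.univ.filter
        (fun η : IrrCharacter C => blockOf M (η : C → ℂ) = β) = Finset.univ.filter (· ∈ β) := by
      intro β hβ
      ext η
      simp only [Finset.mem_filter, Finset.mem_univ, true_and]
      exact ⟨fun h => h ▸ mem_blockOf_self η,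
        fun h => (pBlock_eq (mem_blocks_iff.1 hβ) h).symm⟩
    rw [Finset.sum_congr rfl fun β hβ => by rw [hfib β hβ]]
    rw [← Finset.sum_subset (Finset.filter_subset (fun β => IsInducedBlock M C β B) (blocks M C))]
    swap
    · intro β hβ hne
      obtain ⟨θ, hθ⟩ := pBlock_nonempty (mem_blocks_iff.1 hβ)
      obtain ⟨B', hB'⟩ := hdef θ
      rw [← pBlock_eq (mem_blocks_iff.1 hβ) hθ] at hB'
      have hχ' : χ ∉ B' := fun h => hne (Finset.mem_filter.2
        ⟨hβ, by rwa [pBlock_eq_of_mem hB hB'.2.1 hχ h]⟩)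
      refine Eq.trans ?_ (section_part_eq_zero hM hk hC hB' hχ' (fun η x => hom3 η x) hy)
      refine Finset.sum_congr rfl fun η _ => ?_
      rw [show classInner (fun c : C => (χ : G → ℂ) c) (η : C → ℂ) = (m χ η : ℂ) from hm χ η]
    rw [Finset.sum_subtype (p := fun β => IsInducedBlock M C β B) _
      (fun β => by
        simp only [Finset.mem_filter]
        exact ⟨fun h => h.2, fun h => ⟨mem_blocks_iff.2 h.1, h⟩⟩)]
    refine Finset.sum_congr rfl fun b _ => ?_
    rw [ha]
    push_cast
    rw [Finset.sum_mul]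
    refine Finset.sum_congr rfl fun η hη => ?_
    rw [hd b η (Finset.mem_filter.1 hη).2 y hy, hom b η]
    ring
  -- the coordinate at a member of an inducing block
  have hCne : (Nat.card C : ℂ) ≠ 0 := Nat.cast_ne_zero.mpr Nat.card_pos.ne'
  have hS : ∀ b : ι, (Nat.card C : ℂ) = 4 * regSum 2 (φ b) (φ b) := by
    intro b
    have h1 := BrauerPairs.card_mul_blockRank hM b.2.1
    rw [(hrk b).2.1, Nat.cast_one, mul_one] at h1
    have h4T : ((∑ η ∈ Finset.univ.filter (· ∈ b.1), d b η ^ 2 : ℕ) : ℂ) = 4 := by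
      rw [hT b, (hrk b).2.2]; norm_num
    rw [h1, ← h4T]
    push_cast
    rw [Finset.sum_mul]
    refine Finset.sum_congr rfl fun η hη => ?_
    simp only [regSum, Finset.mul_sum]
    refine Finset.sum_congr rfl fun z hz => ?_
    rw [hd b η (Finset.mem_filter.1 hη).2 z (Finset.mem_filter.1 hz).2, map_mul,
      Complex.conj_natCast]
    ring
  have hSne : ∀ b : ι, regSum 2 (φ b) (φ b) ≠ 0 := fun b h => hCne (by rw [hS b, h, mul_zero])
  have hR : ∀ (b : ι) (χ : IrrCharacter G), ∀ θ ∈ b.1,
      regSum 2 (fun y : C => (χ : G → ℂ) (u * (y : G))) (θ : C → ℂ) =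
        (a b χ : ℂ) * (d b θ : ℂ) * regSum 2 (φ b) (φ b) := by
    intro b χ θ hθ
    have e : regSum 2 (fun y : C => (χ : G → ℂ) (u * (y : G))) (θ : C → ℂ) =
        ∑ η : IrrCharacter C, (m χ η : ℂ) * om η * regSum 2 (η : C → ℂ) (θ : C → ℂ) := by
      simp only [regSum, Finset.mul_sum]
      rw [Finset.sum_comm]
      refine Finset.sum_congr rfl fun z _ => ?_
      rw [hF, Finset.sum_mul]
      exact Finset.sum_congr rfl fun η _ => by ring
    rw [e, ← Finset.sum_subset (Finset.subset_univ (Finset.univ.filter (· ∈ b.1)))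
      (fun η _ hη => by
        have h3 := Brauer.regSum_eq_zero_of_integral (p := 2) hM b.1
          (blockCoeff_memLocalRing b.2.1) hθ (fun h => hη (by simp [h]) : η ∉ b.1)
        rw [← Brauer.regSum_conj, h3, map_zero, mul_zero]), ha]
    push_cast
    rw [Finset.sum_mul, Finset.sum_mul]
    refine Finset.sum_congr rfl fun η hη => ?_
    rw [hom b η]
    simp only [regSum, Finset.mul_sum]
    refine Finset.sum_congr rfl fun z hz => ?_
    rw [hd b η (Finset.mem_filter.1 hη).2 z (Finset.mem_filter.1 hz).2,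
      hd b θ hθ z (Finset.mem_filter.1 hz).2, map_mul, Complex.conj_natCast]
    ring
  have hsq : ∀ b : ι, ∑ χ ∈ Finset.univ.filter (· ∈ B), a b χ ^ 2 = 4 := by
    intro b
    obtain ⟨θ, hθ⟩ := pBlock_nonempty b.2.1
    set R : IrrCharacter G → ℂ :=
      fun χ => regSum 2 (fun y : C => (χ : G → ℂ) (u * (y : G))) (θ : C → ℂ) with hRdef
    have hcol : ∑ χ : IrrCharacter G, R χ * conj (R χ)
        = (Nat.card C : ℂ) * regSum 2 (θ : C → ℂ) (θ : C → ℂ) := by
      rw [← SecCount.regSum_parseval (Char.irr_isClassFunction θ.2)]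
      have e : ∀ η : IrrCharacter C, regSum 2 (θ : C → ℂ) (η : C → ℂ) *
          conj (regSum 2 (θ : C → ℂ) (η : C → ℂ))
          = regSum 2 (η : C → ℂ) (θ : C → ℂ) * conj (regSum 2 (η : C → ℂ) (θ : C → ℂ)) := by
        intro η
        rw [Brauer.regSum_conj, Brauer.regSum_conj, mul_comm]
      rw [Finset.sum_congr rfl fun η _ => e η]
      simp only [hRdef]
      rw [SecCount.sum_regSum_mul_conj, SecCount.sum_regSum_mul_conj]
      refine Finset.sum_congr rfl fun z hz => Finset.sum_congr rfl fun z' hz' => ?_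
      rw [SecCount.sum_irr_section hM hk hC z z' (Finset.mem_filter.1 hz).2
        (Finset.mem_filter.1 hz').2]
    rw [← Finset.sum_subset (Finset.subset_univ (Finset.univ.filter (· ∈ B)))
      (fun χ _ hχ => by
        simp only [hRdef]
        rw [SecCount.regSum_section_eq_zero hM hk hC b.2 (fun h => hχ (by simp [h])) hθ,
          zero_mul])] at hcol
    have hSr : conj (regSum 2 (φ b) (φ b)) = regSum 2 (φ b) (φ b) := Brauer.regSum_conj _ _ _
    have hth : regSum 2 (θ : C → ℂ) (θ : C → ℂ) = (d b θ : ℂ) ^ 2 * regSum 2 (φ b) (φ b) := by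
      simp only [regSum, Finset.mul_sum]
      refine Finset.sum_congr rfl fun z hz => ?_
      rw [hd b θ hθ z (Finset.mem_filter.1 hz).2, map_mul, Complex.conj_natCast]
      ring
    rw [hth, hS b] at hcol
    simp only [hRdef, hR b _ θ hθ, map_mul, Complex.conj_natCast, hSr, map_intCast] at hcol
    have h0 : ((∑ χ ∈ Finset.univ.filter (· ∈ B), a b χ ^ 2 : ℤ) : ℂ) = 4 := by
      have hd0 : (d b θ : ℂ) ≠ 0 := Nat.cast_ne_zero.mpr (hdne b θ hθ)
      refine mul_right_cancel₀ (mul_ne_zero (pow_ne_zero 2 hd0) (pow_ne_zero 2 (hSne b))) ?_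
      push_cast
      rw [Finset.sum_mul]
      refine Eq.trans (Finset.sum_congr rfl fun χ _ => ?_) (hcol.trans (by ring))
      ring
    exact_mod_cast h0
  have horth : ∀ b : ι, ∀ y : G, ¬ 2 ∣ orderOf y →
      ∑ χ ∈ Finset.univ.filter (· ∈ B), (a b χ : ℂ) * (χ : G → ℂ) y = 0 := by
    intro b y hy
    obtain ⟨θ, hθ⟩ := pBlock_nonempty b.2.1
    have h0 : ∑ χ ∈ Finset.univ.filter (· ∈ B),
        regSum 2 (fun z : C => (χ : G → ℂ) (u * (z : G))) (θ : C → ℂ) * conj ((χ : G → ℂ) y)
          = 0 := by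
      simp only [regSum, Finset.sum_mul]
      rw [Finset.sum_comm]
      refine Finset.sum_eq_zero fun z hz => ?_
      have hsing : 2 ∣ orderOf (u * (z : G)) := by
        have hz' : ¬ 2 ∣ orderOf (z : G) := by
          rw [Subgroup.orderOf_coe]; exact (Finset.mem_filter.1 hz).2
        rw [(SecCount.commute_C hC z).orderOf_mul_eq_mul_orderOf_of_coprime
          (by rw [hk]; exact (Nat.prime_two.coprime_iff_not_dvd.2 hz').pow_left k), hk]
        refine (dvd_pow_self 2 fun h0 => hu1 ?_).mul_right _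
        rw [← orderOf_eq_one_iff, hk, h0, pow_zero]
      have h := congrArg conj
        (Brauer.weakOrth_of_integral hM B (blockCoeff_memLocalRing hB) hy hsing)
      rw [map_zero, finsum_mem_eq_toFinset_sum, map_sum] at h
      calc _ = conj ((θ : C → ℂ) z) * ∑ χ ∈ Finset.univ.filter (· ∈ B),
            (χ : G → ℂ) (u * (z : G)) * conj ((χ : G → ℂ) y) := by
            rw [Finset.mul_sum]
            exact Finset.sum_congr rfl fun χ _ => by ring
        _ = 0 := by
            rw [show (0 : ℂ) = conj ((θ : C → ℂ) z) * 0 by ring, ← h]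
            congr 1
            refine Finset.sum_congr (by ext; simp) fun χ _ => ?_
            rw [map_mul, Complex.conj_conj, mul_comm]
    simp only [hR b _ θ hθ] at h0
    have hne : (d b θ : ℂ) * regSum 2 (φ b) (φ b) ≠ 0 :=
      mul_ne_zero (Nat.cast_ne_zero.mpr (hdne b θ hθ)) (hSne b)
    refine mul_right_cancel₀ hne ?_
    rw [zero_mul, Finset.sum_mul]
    have h1 := congrArg conj h0
    rw [map_zero, map_sum] at h1
    refine Eq.trans (Finset.sum_congr rfl fun χ _ => ?_) h1
    rw [map_mul, map_mul, map_mul, Complex.conj_conj, map_intCast, Complex.conj_natCast,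
      Brauer.regSum_conj]
    ring
  refine ⟨ι, inferInstance, a, fun b => φ b s, fun b => ⟨?_, horth b⟩, ?_, fun b => ⟨?_, ?_⟩⟩
  · -- the entries are signs
    intro χ hχ
    exact sign_of_sq_sum_four _
      (by rw [← h4, Nat.card_eq_fintype_card, Fintype.card_subtype]) (a b)
      (fun ζ : IrrCharacter G => (ζ : G → ℂ) 1) (hsq b)
      (horth b 1 (by rw [orderOf_one]; exact Nat.prime_two.not_dvd_one))
      (fun ζ _ => Char.irr_one_ne_zero ζ.2) χ (by simp [hχ])
  · intro χ hχ
    rw [← hxus, hval χ hχ s hs]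
  · dsimp only
    rw [hφ]
    exact (localRing M).sum_mem fun η _ =>
      (localRing M).mul_mem (intCast_mem (localRing M) _) (BlockCover.memLocalRing_irr η _)
  · set Φ : C → ℂ := fun z => ∑ η ∈ Finset.univ.filter (· ∈ b.1), (d b η : ℂ) * (η : C → ℂ) z
      with hΦ
    have hΦc : IsClassFunction C Φ := fun g h => by
      simp only [hΦ]
      exact Finset.sum_congr rfl fun η _ => by rw [Char.irr_isClassFunction η.2 g h]
    have hΦi : ∀ θ : IrrCharacter C, MemLocalRing M (classInner Φ (θ : C → ℂ)) := by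
      intro θ
      have e : Φ = ∑ η ∈ Finset.univ.filter (· ∈ b.1), (d b η : ℂ) • (η : C → ℂ) := by
        funext z; simp [hΦ, Finset.sum_apply]
      rw [e, Char.classInner_sum_left]
      refine (localRing M).sum_mem fun η _ => ?_
      rw [Char.classInner_smul_left, Char.classInner_irrCharacter]
      refine (localRing M).mul_mem (natCast_mem (localRing M) _) ?_
      split_ifs
      · exact (localRing M).one_mem
      · exact (localRing M).zero_mem
    have hΦv : ∀ z : C, 2 ∣ orderOf z → Φ z = 0 := by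
      intro z hz
      have h := congrArg conj (Brauer.weakOrth_of_integral hM b.1
        (blockCoeff_memLocalRing b.2.1) (x := (1 : C))
        (by rw [orderOf_one]; exact Nat.prime_two.not_dvd_one) hz)
      rw [map_zero, finsum_mem_eq_toFinset_sum, map_sum] at h
      have hφ1 : φ b 1 ≠ 0 := by
        obtain ⟨θ, hθ⟩ := pBlock_nonempty b.2.1
        intro h0
        have := hd b θ hθ 1 (by rw [orderOf_one]; exact Nat.prime_two.not_dvd_one)
        rw [h0, mul_zero] at this
        exact Char.irr_one_ne_zero θ.2 this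
      refine mul_right_cancel₀ (mt (map_eq_zero conj).1 hφ1) ?_
      rw [zero_mul, ← h, hΦ]
      dsimp only
      rw [Finset.sum_mul]
      refine Finset.sum_congr (by ext; simp) fun η hη => ?_
      rw [hd b η (by simpa using hη) 1 (by rw [orderOf_one]; exact Nat.prime_two.not_dvd_one),
        map_mul, map_mul, Complex.conj_natCast, Complex.conj_conj]
      ring
    have h1 := Brauer.memLocalRing_div_centralizer_of_vanish_singular hM Φ hΦc hΦi hΦv hs
    have hΦs : Φ s = 4 * φ b s := by
      have h4T : ((∑ η ∈ Finset.univ.filter (· ∈ b.1), d b η ^ 2 : ℕ) : ℂ) = 4 := by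
        rw [hT b, (hrk b).2.2]; norm_num
      rw [← h4T, hΦ]
      push_cast
      rw [Finset.sum_mul]
      refine Finset.sum_congr rfl fun η hη => ?_
      rw [hd b η (Finset.mem_filter.1 hη).2 s hs]
      ring
    have hcard : Nat.card (Subgroup.centralizer ({x} : Set G))
        = Nat.card (Subgroup.centralizer ({s} : Set C)) := by
      have hcop : (orderOf u).Coprime (orderOf (s : G)) := by
        rw [hk, Subgroup.orderOf_coe]; exact (Nat.prime_two.coprime_iff_not_dvd.mpr hs).pow_left k
      rw [← hxus, Element.centralizer_mul_of_coprime (SecCount.commute_C hC s) hcop, ← hC]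
      exact Nat.card_congr
        { toFun := fun w => ⟨⟨w.1, w.2.1⟩, Subgroup.mem_centralizer_singleton_iff.mpr
            (Subtype.ext (Subgroup.mem_centralizer_singleton_iff.mp w.2.2))⟩
          invFun := fun w => ⟨w.1.1, w.1.2, Subgroup.mem_centralizer_singleton_iff.mpr
            (congrArg Subtype.val (Subgroup.mem_centralizer_singleton_iff.mp w.2))⟩
          left_inv := fun w => rfl
          right_inv := fun w => rfl }
    rw [← hΦs, hcard]
    exact memLocalRing_div_of_pPart hM Nat.card_pos.ne' h1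

end Cfsg.Agent.KleinIso
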