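import Cfsg.Agent.BlockCover.KleinIsometry
import Cfsg.Agent.S4637
import Cfsg.Agent.Brauer.Transport

/-!
# A block with a Klein four defect group and its correspondent in the normalizer
-/

set_option linter.style.haveILetI false
set_option linter.unusedSectionVars false
set_option maxHeartbeats 1000000

namespace Cfsg.Agent.KleinIso

open Cfsg
open Cfsg.Agent.Block
open Cfsg.Agent.Brauer (irrComp)
open Cfsg.Agent.BrauerPairs

universe u

variable {G : Type u} [Group G] {M : Ideal AlgInt}

/-- The subsections of a block with elementary defect group of order four give sign data. -/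
theorem hasSignData_of_defect [Fintype G] (hM : IsPModular 2 M) {B : Set (IrrCharacter G)}
    (hB : IsPBlock M B) {P : Subgroup G} (hPD : IsDefectGroup 2 M B P) (h4 : Nat.card P = 4)
    (hsq : ∀ x ∈ P, x * x = 1) :
    Nat.card B = 4 ∧ blockDefect 2 B = 2 ∧ HasSignData M B := by
  classical
  haveI : Fact (Nat.Prime 2) := ⟨Nat.prime_two⟩
  haveI : M.IsPrime := hM.2.1.isPrime
  haveI := Agent.Block.charP_resF hM
  have hk := Brauer.KleinBlock.card_eq_four hM hB hPD h4
  have hdef : ∀ D : Subgroup G, IsDefectGroup 2 M B D → Nat.card D = 4 := fun D hD => by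
    rw [card_isDefectGroup hM hB hD, ← card_isDefectGroup hM hB hPD, h4]
  have hd : blockDefect 2 B = 2 := by
    have := card_isDefectGroup hM hB hPD
    rw [h4] at this
    exact (Nat.pow_right_injective le_rfl this.symm : blockDefect 2 B = 2)
  refine ⟨hk, hd, hasSignData hM hB hk ?_⟩
  intro u hu1 k hku b hb
  have hC : Subgroup.centralizer (Subgroup.zpowers u : Set G) = Subgroup.centralizer ({u} : Set G) :=
    Brauer.centralizer_zpowers_eq u
  set B' : Blk M G := ⟨B, hB⟩ with hB'
  have hDef : IsDef (blockSysTop M) 2 B' P := isDef_of_isDefectGroup hPD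
  have h4all : ∀ Q : Subgroup G, IsDef (blockSysTop M) 2 B' Q → Nat.card Q ≤ 4 := fun Q hQ => by
    obtain ⟨y, hy⟩ := hQ.exists_conj hDef
    rw [← h4, hy, Subgroup.card_map_of_injective (MulAut.conj y).injective]
  haveI := Fintype.ofFinite (Subgroup.centralizer ({u} : Set G))
  have hPu : IsPGroup 2 (Subgroup.zpowers u) :=
    IsPGroup.of_card (n := k) (by rw [Nat.card_zpowers, hku])
  have hle : Subgroup.zpowers u ≤ Subgroup.centralizer ({u} : Set G) :=
    Subgroup.zpowers_le.2 (Subgroup.mem_centralizer_singleton_iff.2 rfl)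
  obtain ⟨E, hE, huE⟩ := exists_defectGroup_ge_of_induced hM hPu hle
    (hC ▸ Subgroup.centralizer_le_normalizer _) hb
  have husq : u * u = 1 := by
    obtain ⟨y, hy⟩ := (isDef_of_isDefectGroup (B := B') hE).exists_conj hDef
    have hmem : y * u * y⁻¹ ∈ P := by
      rw [hy]
      exact ⟨u, huE (Subgroup.mem_zpowers u), rfl⟩
    have h1 := hsq _ hmem
    have h2 : y * (u * u) * y⁻¹ = 1 := by rw [← h1]; group
    exact conj_eq_one_iff.1 h2
  obtain ⟨f, hpair, hfr, -⟩ := Brauer.SmallDefect.exists_pair_of_induced hM (B := B') hku hC.symm b hb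
  have hrk : blockRank 2 b = 1 := by
    rw [← hfr]
    exact Brauer.SmallDefect.blockRank_eq_one_of_pair hM hu1 f hpair h4all
  refine ⟨husq, hrk, ?_⟩
  obtain ⟨D, hD⟩ := exists_isDefectGroup (p := 2) (M := M) hb.1
  have hDcard := card_isDefectGroup hM hb.1 hD
  have hle4 : Nat.card D ≤ 4 := h4 ▸ card_defectGroup_le_of_induced hM hb hD hPD
  haveI hnorm : ((Subgroup.zpowers u).subgroupOf (Subgroup.centralizer ({u} : Set G))).Normal :=
    normal_subgroupOf_of_le_normalizer (hC ▸ Subgroup.centralizer_le_normalizer _)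
  have hZD : (Subgroup.zpowers u).subgroupOf (Subgroup.centralizer ({u} : Set G)) ≤ D :=
    normal_le_isDefectGroup hM hb.1 hD hPu.comap_subtype
  have hu2 : orderOf u = 2 := orderOf_eq_prime (by rw [sq, husq]) hu1
  have hcardZ : Nat.card ((Subgroup.zpowers u).subgroupOf (Subgroup.centralizer ({u} : Set G)))
      = 2 := by
    rw [Nat.card_congr (Subgroup.subgroupOfEquivOfLe hle).toEquiv, Nat.card_zpowers, hu2]
  have hge2 : 2 ≤ Nat.card D := hcardZ ▸ Subgroup.card_le_of_le hZD
  have hne2 : Nat.card D ≠ 2 := by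
    intro h2
    have hDeq : D = (Subgroup.zpowers u).subgroupOf (Subgroup.centralizer ({u} : Set G)) :=
      (Subgroup.eq_of_le_of_card_ge hZD (by rw [h2, hcardZ])).symm
    have hN : Subgroup.centralizer ({u} : Set G) =
        Subgroup.normalizer (Subgroup.zpowers u : Set G) := by
      refine le_antisymm (hC ▸ Subgroup.centralizer_le_normalizer _) fun g hg => ?_
      have h1 : g * u * g⁻¹ ∈ Subgroup.zpowers u :=
        (Subgroup.mem_normalizer_iff.1 hg u).1 (Subgroup.mem_zpowers u)
      rw [mem_zpowers_iff_mem_range_orderOf, Finset.mem_image] at h1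
      obtain ⟨i, hi, hiu⟩ := h1
      rw [hu2, Finset.mem_range] at hi
      interval_cases i
      · exact absurd (conj_eq_one_iff.1 (by rw [← hiu, pow_zero])) hu1
      · rw [pow_one] at hiu
        exact Subgroup.mem_centralizer_singleton_iff.2 (mul_inv_eq_iff_eq_mul.1 hiu.symm)
    have key : ∀ (C : Subgroup G), C = Subgroup.normalizer (Subgroup.zpowers u : Set G) →
        ∀ b' : Set (IrrCharacter C), IsInducedBlock M C b' B →
          IsDefectGroup 2 M b' ((Subgroup.zpowers u).subgroupOf C) →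
            IsDefectGroup 2 M B (Subgroup.zpowers u) := by
      rintro C rfl b' h1 h2
      exact isDefectGroup_of_induced_normalizer hM hPu h2 h1
    have h5 := hdef _ (key _ hN b hb (hDeq ▸ hD))
    rw [Nat.card_zpowers, hu2] at h5
    norm_num at h5
  rw [hDcard] at hle4 hge2 hne2
  obtain ⟨d, hd'⟩ : ∃ d, blockDefect 2 b = d := ⟨_, rfl⟩
  rw [hd'] at hle4 hge2 hne2 ⊢
  match d with
  | 0 => norm_num at hge2
  | 1 => norm_num at hne2
  | 2 => rfl
  | e + 3 =>
    have : (2 : ℕ) ^ 3 ≤ 2 ^ (e + 3) := Nat.pow_le_pow_right (by norm_num) (by omega)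
    omega

theorem isInducedBlock_congr [Finite G] {L₁ L₂ : Subgroup G} (h : L₁ = L₂)
    {b : Set (IrrCharacter L₂)} {B : Set (IrrCharacter G)} (hb : IsInducedBlock M L₂ b B) :
    IsInducedBlock M L₁ (irrComp (MulEquiv.subgroupCongr h) '' b) B := by
  subst h
  have e : irrComp (MulEquiv.subgroupCongr (rfl : L₁ = L₁)) '' b = b :=
    (Set.image_congr fun χ _ => Subtype.ext (funext fun x => rfl)).trans (Set.image_id' b)
  rwa [e]

theorem stabilizesBlock_iff [Finite G] {N K : Subgroup G} {K' : Subgroup N} (f : K ≃* K')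
    (hf : ∀ x : K, ((f x : N) : G) = (x : G)) (b : Set (IrrCharacter K')) (g : N) :
    StabilizesBlock K (irrComp f '' b) (g : G) ↔ StabilizesBlock K' b g := by
  have hf' : ∀ k : K', ((f.symm k : K) : G) = ((k : N) : G) := fun k => by
    rw [← hf (f.symm k), MulEquiv.apply_symm_apply]
  have hmem : ∀ n : N, n ∈ K' ↔ (n : G) ∈ K := fun n =>
    ⟨fun h => by rw [← hf' ⟨n, h⟩]; exact (f.symm ⟨n, h⟩).2,
      fun h => by
        have : (f ⟨(n : G), h⟩ : N) = n := Subtype.ext (hf ⟨n, h⟩)
        rw [← this]; exact (f ⟨_, h⟩).2⟩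
  have hKN : ∀ x ∈ K, x ∈ N := fun x hx => by
    have h := (f ⟨x, hx⟩ : N).2
    rwa [hf] at h
  constructor
  · rintro ⟨hn, hstab⟩
    refine ⟨Subgroup.mem_normalizer_iff.2 fun x => ?_, fun χ hχ => ?_⟩
    · rw [hmem, hmem]
      simpa using Subgroup.mem_normalizer_iff.1 hn (x : G)
    · obtain ⟨_, ⟨χ', hχ', rfl⟩, h2⟩ := hstab (irrComp f χ) ⟨χ, hχ, rfl⟩
      refine ⟨χ', hχ', fun k k' hk => ?_⟩
      have h3 := h2 (f.symm k) (f.symm k') (by
        rw [hf', hf']
        simpa using congrArg (fun z : N => (z : G)) hk)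
      simpa [Brauer.coe_irrComp] using h3
  · rintro ⟨hn, hstab⟩
    refine ⟨Subgroup.mem_normalizer_iff.2 fun x => ?_, ?_⟩
    · constructor
      · intro hx
        have := (Subgroup.mem_normalizer_iff.1 hn ⟨x, hKN x hx⟩).1 ((hmem _).2 hx)
        simpa using (hmem _).1 this
      · intro hx
        have hN' : x ∈ N := by
          have h1 := N.mul_mem (N.mul_mem (N.inv_mem g.2) (hKN _ hx)) g.2
          simpa [mul_assoc] using h1
        have h1 : g * ⟨x, hN'⟩ * g⁻¹ ∈ K' := (hmem _).2 (by simpa using hx)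
        exact (hmem _).1 ((Subgroup.mem_normalizer_iff.1 hn ⟨x, hN'⟩).2 h1)
    · rintro _ ⟨χ, hχ, rfl⟩
      obtain ⟨χ', hχ', h2⟩ := hstab χ hχ
      refine ⟨irrComp f χ', ⟨χ', hχ', rfl⟩, fun k k' hk => ?_⟩
      simpa [Brauer.coe_irrComp] using h2 (f k) (f k') (Subtype.ext (by simpa [hf] using hk))

/-- A Klein four block and its correspondent in the normalizer have the same regular rank. -/
theorem blockRank_correspondent [Finite G] (hM : IsPModular 2 M) {B : Set (IrrCharacter G)}
    (hB : IsPBlock M B) {P : Subgroup G} (hPD : IsDefectGroup 2 M B P) (hV : IsKleinFour P)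
    {N : Subgroup G} (hN : N = Subgroup.normalizer (P : Set G)) {c : Set (IrrCharacter N)}
    (hcD : IsDefectGroup 2 M c (P.subgroupOf N))
    (hc : IsInducedBlock M N c B) :
    blockRank 2 c = blockRank 2 B ∧ (blockRank 2 B = 1 ∨ blockRank 2 B = 3) := by
  classical
  letI := Fintype.ofFinite G
  haveI : Fact (Nat.Prime 2) := ⟨Nat.prime_two⟩
  haveI : M.IsPrime := hM.2.1.isPrime
  haveI := Agent.Block.charP_resF hM
  set C := Subgroup.centralizer (P : Set G) with hC
  have hPN : P ≤ N := hN ▸ Subgroup.le_normalizer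
  have hCN : C ≤ N := hN ▸ Subgroup.centralizer_le_normalizer _
  haveI := Fintype.ofFinite N
  set P' := P.subgroupOf N with hP'
  have hV' : IsKleinFour P' := by
    haveI := hV
    exact
      { card_four := by
          rw [Nat.card_congr (Subgroup.subgroupOfEquivOfLe hPN).toEquiv]
          exact IsKleinFour.card_four
        exponent_two := by
          rw [Monoid.exponent_eq_of_mulEquiv (Subgroup.subgroupOfEquivOfLe hPN)]
          exact IsKleinFour.exponent_two }
  have hEq : C.subgroupOf N = Subgroup.centralizer (P' : Set N) := by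
    ext x
    rw [Subgroup.mem_subgroupOf, hC, Subgroup.mem_centralizer_iff, Subgroup.mem_centralizer_iff]
    exact ⟨fun h y hy => Subtype.ext (h y hy), fun h y hy =>
      congrArg Subtype.val (h ⟨y, hPN hy⟩ hy)⟩
  have hnorm : ∀ g : N, g ∈ Subgroup.normalizer (P' : Set N) := fun g =>
    Subgroup.mem_normalizer_iff.2 fun x => by
      simpa [hP', Subgroup.mem_subgroupOf] using Subgroup.mem_normalizer_iff.1 (hN.le g.2) (x : G)
  have hab : P' ≤ Subgroup.centralizer (P' : Set N) := fun x hx => by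
    haveI := hV'
    exact Subgroup.mem_centralizer_iff.2 fun y hy =>
      congrArg Subtype.val (mul_comm_of_exponent_two IsKleinFour.exponent_two
        (⟨y, hy⟩ : P') ⟨x, hx⟩)
  haveI := Fintype.ofFinite (Subgroup.centralizer (P' : Set N))
  obtain ⟨c₀', hc₀'⟩ := exists_isInducedBlock_of_subConj hM (P := P') hab le_rfl
    (Subgroup.centralizer_le_normalizer _) hc.1 hcD ⟨1, by rintro _ ⟨y, hy, rfl⟩; simpa using hy⟩
  set e₁ := Subgroup.subgroupOfEquivOfLe hCN with he₁
  set f : C ≃* Subgroup.centralizer (P' : Set N) :=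
    e₁.symm.trans (MulEquiv.subgroupCongr hEq) with hfdef
  have hf : ∀ x : C, ((f x : N) : G) = (x : G) := fun x => rfl
  set c₀ := irrComp f '' c₀' with hc₀
  have hβ : IsInducedBlock M (C.subgroupOf N) (irrComp e₁ '' c₀) c := by
    have h := isInducedBlock_congr hEq hc₀'
    have e : irrComp (MulEquiv.subgroupCongr hEq) '' c₀' = irrComp e₁ '' c₀ := by
      rw [hc₀, Set.image_image]
      refine Set.image_congr fun χ _ => Subtype.ext (funext fun x => ?_)
      simp only [Brauer.coe_irrComp, Function.comp_apply]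
      rfl
    rwa [e] at h
  have hc₀b : IsPBlock M c₀ := Brauer.isPBlock_image_irrComp f hc₀'.1
  haveI := Fintype.ofFinite C
  obtain ⟨ξ, hξ⟩ := pBlock_nonempty hc₀b
  have hP2 : IsPGroup 2 P := by
    haveI := hV
    exact IsPGroup.of_card (n := 2) (by rw [IsKleinFour.card_four]; norm_num)
  have habG : P ≤ C := fun x hx => by
    haveI := hV
    exact Subgroup.mem_centralizer_iff.2 fun y hy =>
      congrArg Subtype.val (mul_comm_of_exponent_two IsKleinFour.exponent_two
        (⟨y, hy⟩ : P) ⟨x, hx⟩)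
  obtain ⟨B₀, hB₀⟩ := inducedBlockDefined_of_brauer hM hP2 habG le_rfl
    (Subgroup.centralizer_le_normalizer _) hc₀b
  have hNB₀ := Brauer.isInducedBlock_trans hCN hB₀ hβ
  obtain rfl : B₀ = B := isInducedBlock_unique hNB₀ hc
  let cB : Blk M C := ⟨c₀, hc₀b⟩
  set T := stab (⟨P, cB⟩ : PairIdx M G) with hT
  obtain ⟨he13, -, hl⟩ := S4637.result M hM _ hB P hPD hV c₀ hB₀ T
    (fun g => mem_stab_iff_stabilizesBlock cB g) _ rfl
  obtain ⟨-, -, hl'⟩ := S4637.result M hM c hc.1 P' hcD hV' c₀' hc₀' (T.subgroupOf N)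
    (fun g => by
      rw [Subgroup.mem_subgroupOf, hT, mem_stab_iff_stabilizesBlock cB]
      change _ ∧ StabilizesBlock C (irrComp f '' c₀') _ ↔ _
      rw [stabilizesBlock_iff f hf c₀' g]
      exact ⟨fun h => ⟨hnorm g, h.2⟩, fun h => ⟨hN.le g.2, h.2⟩⟩) _ rfl
  have hTN : T ≤ N := (stab_le_normalizer _).trans hN.ge
  rw [← hEq, Subgroup.relIndex_subgroupOf hTN] at hl'
  exact ⟨hl'.trans hl.symm, hl ▸ he13⟩

end Cfsg.Agent.KleinIso
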