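import Cfsg.Agent.BlockCover.KleinColumns
import Cfsg.Prelude.Def_BlockLocal

/-!
# A perfect isometry between two blocks with four characters and sign data, for `p = 2`
-/

set_option linter.style.haveILetI false
set_option linter.unusedSectionVars false
set_option maxHeartbeats 1000000

namespace Cfsg.Agent.KleinIso

open Cfsg
open Cfsg.Agent.Block
open scoped ComplexConjugate Classical
open Cfsg.Agent.Brauer (regSum)

universe u v

variable {G : Type u} [Group G] [Fintype G] {H : Type v} [Group H] [Fintype H] {M : Ideal AlgInt}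

/-- Products of balanced sign vectors of even length sum to a multiple of four. -/
theorem four_dvd_sum_mul {α : Type*} (S : Finset α) (hS : S.card = 4) (a b : α → ℤ)
    (ha : ∀ i ∈ S, a i = 1 ∨ a i = -1) (hb : ∀ i ∈ S, b i = 1 ∨ b i = -1)
    (ha0 : ∑ i ∈ S, a i = 0) (hb0 : ∑ i ∈ S, b i = 0) : 4 ∣ ∑ i ∈ S, a i * b i := by
  have h : (4 : ℤ) ∣ ∑ i ∈ S, (a i + 1) * (b i + 1) := Finset.dvd_sum fun i hi => by
    rcases ha i hi with h | h <;> rcases hb i hi with h' | h' <;> simp [h, h']
  have e : ∑ i ∈ S, (a i + 1) * (b i + 1) = (∑ i ∈ S, a i * b i) + 4 := by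
    have : ∀ i ∈ S, (a i + 1) * (b i + 1) = a i * b i + a i + b i + 1 := fun i _ => by ring
    rw [Finset.sum_congr rfl this, Finset.sum_add_distrib, Finset.sum_add_distrib,
      Finset.sum_add_distrib, ha0, hb0, Finset.sum_const, hS]
    simp
  rw [e] at h
  simpa using h

/-- For rank one the members agree on the regular elements and the sign vectors are balanced. -/
theorem rank_one_facts (hM : IsPModular 2 M) {B : Set (IrrCharacter G)} (hB : IsPBlock M B)
    (h4 : Nat.card B = 4) (hd : blockDefect 2 B = 2) (hl : blockRank 2 B = 1) :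
    (∀ χ ∈ B, ∀ χ' ∈ B, ∀ y : G, ¬ 2 ∣ orderOf y → (χ : G → ℂ) y = (χ' : G → ℂ) y) ∧
      ∀ a, IsSignVec B a → ∑ χ ∈ Finset.univ.filter (· ∈ B), a χ = 0 := by
  haveI : M.IsPrime := hM.2.1.isPrime
  haveI : Fact (Nat.Prime 2) := ⟨Nat.prime_two⟩
  obtain ⟨φ, d, n, -, hφ, hT⟩ := BrauerPairs.exists_rank_one_data hM hB hl
  set S := Finset.univ.filter (· ∈ B) with hSdef
  have hScard : S.card = 4 := by
    rw [← h4, Nat.card_eq_fintype_card, Fintype.card_subtype]
  have h1 : ¬ 2 ∣ orderOf (1 : G) := by rw [orderOf_one]; exact Nat.prime_two.not_dvd_one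
  have hpos : ∀ χ ∈ S, 1 ≤ d χ ^ 2 := by
    intro χ hχ
    refine Nat.one_le_pow 2 _ (Nat.pos_of_ne_zero fun h => ?_)
    have := hφ χ (by simpa [hSdef] using hχ) 1 h1
    rw [h, Nat.cast_zero, zero_mul] at this
    exact Char.irr_one_ne_zero χ.2 this
  have hone : ∀ χ ∈ S, d χ = 1 := by
    intro χ hχ
    have h := (Finset.sum_eq_sum_iff_of_le hpos).1
      (by rw [hT, hd, Finset.sum_const, hScard]; rfl) χ hχ
    exact (Nat.pow_eq_one.1 h.symm).resolve_right two_ne_zero
  have hval : ∀ χ ∈ B, ∀ y : G, ¬ 2 ∣ orderOf y → (χ : G → ℂ) y = φ y := fun χ hχ y hy => by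
    rw [hφ χ hχ y hy, hone χ (by simp [hSdef, hχ]), Nat.cast_one, one_mul]
  refine ⟨fun χ hχ χ' hχ' y hy => by rw [hval χ hχ y hy, hval χ' hχ' y hy], fun a ha => ?_⟩
  have h := ha.orth 1 h1
  rw [Finset.sum_congr rfl fun χ hχ => by rw [hval χ (by simpa using hχ) 1 h1],
    ← Finset.sum_mul] at h
  obtain ⟨χ, hχ⟩ := pBlock_nonempty hB
  have hne : φ 1 ≠ 0 := fun h0 => Char.irr_one_ne_zero χ.2 (by rw [hval χ hχ 1 h1, h0])
  exact_mod_cast (mul_eq_zero.1 h).resolve_right hne

/-- For rank three all sign vectors agree up to a common sign, and there is one. -/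
theorem rank_three_facts (hM : IsPModular 2 M) {B : Set (IrrCharacter G)} (hB : IsPBlock M B)
    (h4 : Nat.card B = 4) (hl : blockRank 2 B = 3) (hdata : HasSignData M B) :
    ∃ a₀, IsSignVec B a₀ ∧ ∀ a, IsSignVec B a →
      ∃ t : ℤ, ∀ χ ∈ B, a χ = t * a₀ χ := by
  haveI : M.IsPrime := hM.2.1.isPrime
  obtain ⟨a₀, ha₀⟩ : ∃ a₀, IsSignVec B a₀ := by
    by_contra hno
    push Not at hno
    have hzero : ∀ χ ∈ B, ∀ x : G, 2 ∣ orderOf x → (χ : G → ℂ) x = 0 := by
      intro χ hχ x hx
      obtain ⟨ι, hι, a, w, ha, hval, -⟩ := hdata x hx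
      rw [hval χ hχ]
      exact Finset.sum_eq_zero fun i _ => absurd (ha i) (hno _)
    have h := BrauerPairs.card_mul_blockRank hM hB
    have hreg : ∀ χ ∈ Finset.univ.filter (· ∈ B),
        regSum 2 (χ : G → ℂ) (χ : G → ℂ) = (Nat.card G : ℂ) := by
      intro χ hχ
      have e : regSum 2 (χ : G → ℂ) (χ : G → ℂ) =
          ∑ g : G, (χ : G → ℂ) g * conj ((χ : G → ℂ) g) := by
        refine Finset.sum_subset (Finset.subset_univ _) fun g _ hg => ?_
        rw [hzero χ (by simpa using hχ) g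
          (not_not.1 fun h' => hg (Finset.mem_filter.2 ⟨Finset.mem_univ _, h'⟩)), zero_mul]
      rw [e, Char.sum_mul_conj_eq_card_mul_classInner, Char.classInner_irrCharacter, if_pos rfl,
        mul_one]
    rw [hl, Finset.sum_congr rfl hreg, Finset.sum_const, nsmul_eq_mul] at h
    have hcard : (Finset.univ.filter (· ∈ B)).card = 4 := by
      rw [← h4, Nat.card_eq_fintype_card, Fintype.card_subtype]
    rw [hcard, mul_comm] at h
    have h2 := mul_right_cancel₀ (Nat.cast_ne_zero.mpr Nat.card_pos.ne' : (Nat.card G : ℂ) ≠ 0) h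
    norm_num at h2
  refine ⟨a₀, ha₀, fun a ha => ?_⟩
  let Φ : (B → ℂ) →ₗ[ℂ] (G → ℂ) :=
    Fintype.linearCombination ℂ fun χ : B => pRegularPart 2 ((χ.1 : IrrCharacter G) : G → ℂ)
  have hrange : Module.finrank ℂ (LinearMap.range Φ) = 3 := by
    have h1 : LinearMap.range Φ = Submodule.span ℂ
        ((fun χ : IrrCharacter G => pRegularPart 2 (χ : G → ℂ)) '' B) := by
      simp only [Φ, Fintype.range_linearCombination]
      congr 1
      ext f
      constructor
      · rintro ⟨χ, rfl⟩; exact ⟨χ.1, χ.2, rfl⟩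
      · rintro ⟨χ, hχ, rfl⟩; exact ⟨⟨χ, hχ⟩, rfl⟩
    rw [h1]; exact hl
  have hker : Module.finrank ℂ (LinearMap.ker Φ) = 1 := by
    have h := LinearMap.finrank_range_add_finrank_ker Φ
    rw [hrange, Module.finrank_fintype_fun_eq_card, ← Nat.card_eq_fintype_card, h4] at h
    omega
  have hmem : ∀ {c : IrrCharacter G → ℤ}, IsSignVec B c →
      (fun χ : B => (c χ.1 : ℂ)) ∈ LinearMap.ker Φ := by
    intro c hc
    rw [LinearMap.mem_ker]
    funext y
    simp only [Φ, Fintype.linearCombination_apply, Finset.sum_apply, Pi.smul_apply, smul_eq_mul,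
      Pi.zero_apply]
    by_cases hy : 2 ∣ orderOf y
    · simp [pRegularPart, IsPRegular, hy]
    · have h := hc.orth y hy
      rw [Finset.sum_subtype (p := (· ∈ B)) _ (fun χ => by simp)] at h
      simpa [pRegularPart, IsPRegular, hy] using h
  obtain ⟨χ₀, hχ₀⟩ := pBlock_nonempty hB
  have hne : (⟨_, hmem ha₀⟩ : LinearMap.ker Φ) ≠ 0 := by
    intro h
    have h1 := congrFun (congrArg Subtype.val h) ⟨χ₀, hχ₀⟩
    simp at h1
    rcases ha₀.unit χ₀ hχ₀ with h2 | h2 <;> rw [h2] at h1 <;> norm_num at h1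
  obtain ⟨t, ht⟩ := (finrank_eq_one_iff_of_nonzero' ⟨_, hmem ha₀⟩ hne).1 hker ⟨_, hmem ha⟩
  have ht' : ∀ χ ∈ B, (a χ : ℂ) = t * (a₀ χ : ℂ) := fun χ hχ =>
    (congrFun (congrArg Subtype.val ht) ⟨χ, hχ⟩).symm
  refine ⟨a χ₀ * a₀ χ₀, fun χ hχ => ?_⟩
  have h00 : (a₀ χ₀ : ℂ) * (a₀ χ₀ : ℂ) = 1 := by
    rcases ha₀.unit χ₀ hχ₀ with h2 | h2 <;> rw [h2] <;> norm_num
  have : (a χ : ℂ) = (a χ₀ : ℂ) * (a₀ χ₀ : ℂ) * (a₀ χ : ℂ) := by
    rw [ht' χ hχ, ht' χ₀ hχ₀]
    linear_combination -(t * (a₀ χ : ℂ)) * h00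
  exact_mod_cast this

/-- Two blocks with four members, equal ranks and sign data are perfectly isometric. -/
theorem exists_isPerfectIsometry (hM : IsPModular 2 M) {B : Set (IrrCharacter G)}
    (hB : IsPBlock M B) {c : Set (IrrCharacter H)} (hc : IsPBlock M c)
    (hkB : Nat.card B = 4) (hkc : Nat.card c = 4) (hdB : blockDefect 2 B = 2)
    (hdc : blockDefect 2 c = 2) (hl : blockRank 2 c = blockRank 2 B)
    (h13 : blockRank 2 B = 1 ∨ blockRank 2 B = 3)
    (hsB : HasSignData M B) (hsc : HasSignData M c) :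
    ∃ (I : IrrCharacter H → IrrCharacter G) (ε : IrrCharacter H → ℤ),
      IsPerfectIsometry 2 M c B I ε := by
  haveI : M.IsPrime := hM.2.1.isPrime
  haveI : Fact (Nat.Prime 2) := ⟨Nat.prime_two⟩
  obtain ⟨σ⟩ : Nonempty (c ≃ B) := by
    refine Finite.card_eq.1 ?_
    rw [Nat.card_coe_set_eq] at hkB hkc ⊢
    rw [Nat.card_coe_set_eq, hkB, hkc]
  obtain ⟨χ₀, hχ₀⟩ := pBlock_nonempty hB
  set I : IrrCharacter H → IrrCharacter G :=
    fun η => if h : η ∈ c then (σ ⟨η, h⟩ : B).1 else χ₀ with hIdef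
  have hI : ∀ η : c, I η.1 = (σ η).1 := fun η => by
    rw [hIdef]; simp only; rw [dif_pos η.2]
  have hbij : Set.BijOn I c B := by
    refine ⟨fun η hη => (hI ⟨η, hη⟩).symm ▸ (σ ⟨η, hη⟩).2, fun η hη η' hη' h => ?_,
      fun χ hχ => ⟨(σ.symm ⟨χ, hχ⟩).1, (σ.symm ⟨χ, hχ⟩).2, ?_⟩⟩
    · rw [hI ⟨η, hη⟩, hI ⟨η', hη'⟩] at h
      exact congrArg Subtype.val (σ.injective (Subtype.ext h))
    · rw [hI, σ.apply_symm_apply]
  set S := Finset.univ.filter (· ∈ c) with hSdef
  have hScard : S.card = 4 := by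
    rw [← hkc, Nat.card_eq_fintype_card, Fintype.card_subtype]
  have hsum : ∀ {R : Type} [AddCommMonoid R] (f : IrrCharacter G → R),
      ∑ η ∈ S, f (I η) = ∑ χ ∈ Finset.univ.filter (· ∈ B), f χ := fun f =>
    Finset.sum_bij (fun η _ => I η)
      (fun η hη => by simpa using hbij.mapsTo (by simpa [hSdef] using hη))
      (fun η hη η' hη' h => hbij.injOn (by simpa [hSdef] using hη) (by simpa [hSdef] using hη') h)
      (fun χ hχ => by
        obtain ⟨η, hη, he⟩ := hbij.surjOn (show χ ∈ B by simpa using hχ)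
        exact ⟨η, by simpa [hSdef] using hη, he⟩)
      (fun _ _ => rfl)
  -- the signs
  obtain ⟨ε, hε, hP1, hP2, hP3⟩ : ∃ ε : IrrCharacter H → ℤ, (∀ η ∈ c, ε η = 1 ∨ ε η = -1) ∧
      (∀ a a', IsSignVec B a → IsSignVec c a' → 4 ∣ ∑ η ∈ S, ε η * a (I η) * a' η) ∧
      (∀ a', IsSignVec c a' → ∀ x : G, ¬ 2 ∣ orderOf x →
        ∑ η ∈ S, (ε η : ℂ) * (a' η : ℂ) * (I η : G → ℂ) x = 0) ∧
      (∀ a, IsSignVec B a → ∀ y : H, ¬ 2 ∣ orderOf y →
        ∑ η ∈ S, (ε η : ℂ) * (a (I η) : ℂ) * (η : H → ℂ) y = 0) := by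
    rcases h13 with h1 | h3
    · obtain ⟨heqB, hbalB⟩ := rank_one_facts hM hB hkB hdB h1
      obtain ⟨heqc, hbalc⟩ := rank_one_facts hM hc hkc hdc (hl.trans h1)
      obtain ⟨η₀, hη₀⟩ := pBlock_nonempty hc
      refine ⟨fun _ => 1, fun _ _ => Or.inl rfl, fun a a' ha ha' => ?_, fun a' ha' x hx => ?_,
        fun a ha y hy => ?_⟩
      · simp only [one_mul]
        refine four_dvd_sum_mul S hScard (fun η => a (I η)) a'
          (fun η hη => ha.unit _ (hbij.mapsTo (by simpa [hSdef] using hη)))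
          (fun η hη => ha'.unit _ (by simpa [hSdef] using hη)) ?_ (hbalc a' ha')
        rw [hsum a]; exact hbalB a ha
      · have h0 : ∑ η ∈ S, (a' η : ℂ) = 0 := by exact_mod_cast hbalc a' ha'
        calc _ = ∑ η ∈ S, (a' η : ℂ) * (χ₀ : G → ℂ) x := by
              refine Finset.sum_congr rfl fun η hη => ?_
              rw [heqB _ (hbij.mapsTo (by simpa [hSdef] using hη)) χ₀ hχ₀ x hx, Int.cast_one,
                one_mul]
          _ = 0 := by rw [← Finset.sum_mul, h0, zero_mul]
      · have h0 : ∑ η ∈ S, (a (I η) : ℂ) = 0 := by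
          rw [hsum (fun χ => (a χ : ℂ))]; exact_mod_cast hbalB a ha
        calc _ = ∑ η ∈ S, (a (I η) : ℂ) * (η₀ : H → ℂ) y := by
              refine Finset.sum_congr rfl fun η hη => ?_
              rw [heqc η (by simpa [hSdef] using hη) η₀ hη₀ y hy, Int.cast_one, one_mul]
          _ = 0 := by rw [← Finset.sum_mul, h0, zero_mul]
    · obtain ⟨a₀, ha₀, huB⟩ := rank_three_facts hM hB hkB h3 hsB
      obtain ⟨b₀, hb₀, huc⟩ := rank_three_facts hM hc hkc (hl.trans h3) hsc
      have hsqB : ∀ η ∈ S, a₀ (I η) * a₀ (I η) = 1 := fun η hη => by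
        rcases ha₀.unit _ (hbij.mapsTo (by simpa [hSdef] using hη)) with h | h <;> rw [h] <;> rfl
      have hsqc : ∀ η ∈ S, b₀ η * b₀ η = 1 := fun η hη => by
        rcases hb₀.unit η (by simpa [hSdef] using hη) with h | h <;> rw [h] <;> rfl
      refine ⟨fun η => a₀ (I η) * b₀ η, fun η hη => ?_, fun a a' ha ha' => ?_,
        fun a' ha' x hx => ?_, fun a ha y hy => ?_⟩
      · rcases ha₀.unit _ (hbij.mapsTo hη) with h | h <;> rcases hb₀.unit η hη with h' | h' <;>
          simp [h, h']
      · obtain ⟨t, ht⟩ := huB a ha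
        obtain ⟨t', ht'⟩ := huc a' ha'
        refine ⟨t * t', ?_⟩
        calc _ = ∑ η ∈ S, t * t' * ((a₀ (I η) * a₀ (I η)) * (b₀ η * b₀ η)) := by
              refine Finset.sum_congr rfl fun η hη => ?_
              rw [ht _ (hbij.mapsTo (by simpa [hSdef] using hη)),
                ht' η (by simpa [hSdef] using hη)]
              ring
          _ = 4 * (t * t') := by
              rw [Finset.sum_congr rfl fun η hη => by rw [hsqB η hη, hsqc η hη, one_mul, mul_one],
                Finset.sum_const, hScard]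
              simp
      · obtain ⟨t', ht'⟩ := huc a' ha'
        calc _ = ∑ η ∈ S, (t' : ℂ) * ((a₀ (I η) : ℂ) * (I η : G → ℂ) x) := by
              refine Finset.sum_congr rfl fun η hη => ?_
              rw [ht' η (by simpa [hSdef] using hη)]
              have h1 : (b₀ η : ℂ) * (b₀ η : ℂ) = 1 := by exact_mod_cast hsqc η hη
              push_cast
              linear_combination ((t' : ℂ) * (a₀ (I η) : ℂ) * (I η : G → ℂ) x) * h1
          _ = 0 := by
              rw [← Finset.mul_sum, hsum (fun χ => (a₀ χ : ℂ) * (χ : G → ℂ) x), ha₀.orth x hx,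
                mul_zero]
      · obtain ⟨t, ht⟩ := huB a ha
        calc _ = ∑ η ∈ S, (t : ℂ) * ((b₀ η : ℂ) * (η : H → ℂ) y) := by
              refine Finset.sum_congr rfl fun η hη => ?_
              rw [ht _ (hbij.mapsTo (by simpa [hSdef] using hη))]
              have h1 : (a₀ (I η) : ℂ) * (a₀ (I η) : ℂ) = 1 := by exact_mod_cast hsqB η hη
              push_cast
              linear_combination ((t : ℂ) * (b₀ η : ℂ) * (η : H → ℂ) y) * h1
          _ = 0 := by rw [← Finset.mul_sum, hb₀.orth y hy, mul_zero]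
  refine ⟨I, ε, hbij, hε, ?_⟩
  set μ := signedBijectionKernel c I ε with hμdef
  have hμ : ∀ x y, μ x y = ∑ η ∈ S, (ε η : ℂ) * (I η : G → ℂ) x * (η : H → ℂ) y := by
    intro x y
    rw [hμdef, signedBijectionKernel, finsum_mem_eq_toFinset_sum]
    exact Finset.sum_congr (by ext; simp [hSdef]) fun _ _ => rfl
  have hGH : ∀ x y, 2 ∣ orderOf x → ¬ 2 ∣ orderOf y → μ x y = 0 := by
    intro x y hx hy
    obtain ⟨ι, hι, a, w, ha, hval, -⟩ := hsB x hx
    rw [hμ]
    calc _ = ∑ η ∈ S, ∑ i, w i * ((ε η : ℂ) * (a i (I η) : ℂ) * (η : H → ℂ) y) := by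
          refine Finset.sum_congr rfl fun η hη => ?_
          rw [hval _ (hbij.mapsTo (by simpa [hSdef] using hη)), Finset.mul_sum, Finset.sum_mul]
          exact Finset.sum_congr rfl fun i _ => by ring
      _ = 0 := by
          rw [Finset.sum_comm]
          refine Finset.sum_eq_zero fun i _ => ?_
          rw [← Finset.mul_sum, hP3 (a i) (ha i) y hy, mul_zero]
  have hHG : ∀ x y, ¬ 2 ∣ orderOf x → 2 ∣ orderOf y → μ x y = 0 := by
    intro x y hx hy
    obtain ⟨ι, hι, a, w, ha, hval, -⟩ := hsc y hy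
    rw [hμ]
    calc _ = ∑ η ∈ S, ∑ i, w i * ((ε η : ℂ) * (a i η : ℂ) * (I η : G → ℂ) x) := by
          refine Finset.sum_congr rfl fun η hη => ?_
          rw [hval η (by simpa [hSdef] using hη), Finset.mul_sum]
          exact Finset.sum_congr rfl fun i _ => by ring
      _ = 0 := by
          rw [Finset.sum_comm]
          refine Finset.sum_eq_zero fun i _ => ?_
          rw [← Finset.mul_sum, hP2 (a i) (ha i) x hx, mul_zero]
  have hint : ∀ (η : IrrCharacter H) (y : H), MemLocalRing M ((ε η : ℂ) * (η : H → ℂ) y) :=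
    fun η y => (localRing M).mul_mem (intCast_mem (localRing M) _) (BlockCover.memLocalRing_irr η y)
  have hint' : ∀ (η : IrrCharacter H) (x : G), MemLocalRing M ((ε η : ℂ) * (I η : G → ℂ) x) :=
    fun η x => (localRing M).mul_mem (intCast_mem (localRing M) _)
      (BlockCover.memLocalRing_irr (I η) x)
  intro x y
  by_cases hx : 2 ∣ orderOf x <;> by_cases hy : 2 ∣ orderOf y
  · obtain ⟨ι, hι, a, w, ha, hval, hw⟩ := hsB x hx
    obtain ⟨ι', hι', a', w', ha', hval', hw'⟩ := hsc y hy
    choose k hk using fun i j => hP1 (a i) (a' j) (ha i) (ha' j)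
    have hform : μ x y = ∑ i, ∑ j, (4 * (k i j : ℂ)) * (w i * w' j) := by
      have hk' : ∀ i j, (4 * (k i j : ℂ)) =
          ∑ η ∈ S, (ε η : ℂ) * (a i (I η) : ℂ) * (a' j η : ℂ) := fun i j => by
        have := congrArg (fun z : ℤ => (z : ℂ)) (hk i j)
        push_cast at this
        exact this.symm
      rw [hμ]
      simp only [hk', Finset.sum_mul]
      rw [Finset.sum_congr rfl fun η hη => by
        rw [hval _ (hbij.mapsTo (show η ∈ c by simpa [hSdef] using hη)),
          hval' η (by simpa [hSdef] using hη), mul_assoc, Finset.sum_mul_sum, Finset.mul_sum]]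
      simp only [Finset.mul_sum]
      rw [Finset.sum_comm]
      refine Finset.sum_congr rfl fun i _ => ?_
      rw [Finset.sum_comm]
      exact Finset.sum_congr rfl fun j _ => Finset.sum_congr rfl fun η _ => by ring
    refine ⟨?_, ?_, Or.inl ⟨fun h => absurd hx h, fun h => absurd hy h⟩⟩
    · rw [hform, Finset.sum_div]
      refine (localRing M).sum_mem fun i _ => ?_
      rw [Finset.sum_div]
      refine (localRing M).sum_mem fun j _ => ?_
      rw [show (4 * (k i j : ℂ)) * (w i * w' j) / (Nat.card (Subgroup.centralizer ({x} : Set G)) : ℂ)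
        = (k i j : ℂ) * w' j * (4 * w i / (Nat.card (Subgroup.centralizer ({x} : Set G)) : ℂ))
        from by ring]
      exact (localRing M).mul_mem ((localRing M).mul_mem (intCast_mem (localRing M) _) (hw' j).1)
        (hw i).2
    · rw [hform, Finset.sum_div]
      refine (localRing M).sum_mem fun i _ => ?_
      rw [Finset.sum_div]
      refine (localRing M).sum_mem fun j _ => ?_
      rw [show (4 * (k i j : ℂ)) * (w i * w' j) / (Nat.card (Subgroup.centralizer ({y} : Set H)) : ℂ)
        = (k i j : ℂ) * w i * (4 * w' j / (Nat.card (Subgroup.centralizer ({y} : Set H)) : ℂ))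
        from by ring]
      exact (localRing M).mul_mem ((localRing M).mul_mem (intCast_mem (localRing M) _) (hw i).1)
        (hw' j).2
  · rw [hGH x y hx hy]
    simp only [zero_div]
    exact ⟨(localRing M).zero_mem, (localRing M).zero_mem, Or.inr trivial⟩
  · rw [hHG x y hx hy]
    simp only [zero_div]
    exact ⟨(localRing M).zero_mem, (localRing M).zero_mem, Or.inr trivial⟩
  · refine ⟨?_, ?_, Or.inl ⟨fun _ => hy, fun _ => hx⟩⟩
    · set f : G → ℂ := fun z => μ z y with hf
      have hfc : IsClassFunction G f := fun g z => by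
        simp only [hf, hμ]
        exact Finset.sum_congr rfl fun η _ => by rw [Char.irr_isClassFunction (I η).2 g z]
      have hfi : ∀ χ : IrrCharacter G, MemLocalRing M (classInner f (χ : G → ℂ)) := by
        intro χ
        have e : f = ∑ η ∈ S, ((ε η : ℂ) * (η : H → ℂ) y) • (I η : G → ℂ) := by
          funext z
          simp only [hf, hμ, Finset.sum_apply, Pi.smul_apply, smul_eq_mul]
          exact Finset.sum_congr rfl fun η _ => by ring
        rw [e, Char.classInner_sum_left]
        refine (localRing M).sum_mem fun η _ => ?_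
        rw [Char.classInner_smul_left, Char.classInner_irrCharacter]
        refine (localRing M).mul_mem (hint η y) ?_
        split_ifs
        · exact (localRing M).one_mem
        · exact (localRing M).zero_mem
      exact memLocalRing_div_of_pPart hM Nat.card_pos.ne'
        (Brauer.memLocalRing_div_centralizer_of_vanish_singular hM f hfc hfi
          (fun z hz => hGH z y hz hy) hx)
    · set f : H → ℂ := fun z => μ x z with hf
      have hfc : IsClassFunction H f := fun g z => by
        simp only [hf, hμ]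
        exact Finset.sum_congr rfl fun η _ => by rw [Char.irr_isClassFunction η.2 g z]
      have hfi : ∀ θ : IrrCharacter H, MemLocalRing M (classInner f (θ : H → ℂ)) := by
        intro θ
        have e : f = ∑ η ∈ S, ((ε η : ℂ) * (I η : G → ℂ) x) • (η : H → ℂ) := by
          funext z
          simp only [hf, hμ, Finset.sum_apply, Pi.smul_apply, smul_eq_mul]
        rw [e, Char.classInner_sum_left]
        refine (localRing M).sum_mem fun η _ => ?_
        rw [Char.classInner_smul_left, Char.classInner_irrCharacter]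
        refine (localRing M).mul_mem (hint' η x) ?_
        split_ifs
        · exact (localRing M).one_mem
        · exact (localRing M).zero_mem
      exact memLocalRing_div_of_pPart hM Nat.card_pos.ne'
        (Brauer.memLocalRing_div_centralizer_of_vanish_singular hM f hfc hfi
          (fun z hz => hHG x z hx hz) hy)

end Cfsg.Agent.KleinIso
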