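import Cfsg.Agent.BlockCover.VanishLift
import Cfsg.Agent.Block.Degrees
import Cfsg.Agent.Brauer.RegularRank
import Cfsg.Agent.Brauer.Inflation
import Cfsg.Agent.Lib.ClassSize
import Cfsg.Agent.Cores.Basic
import Mathlib.LinearAlgebra.Matrix.Rank
import Mathlib.LinearAlgebra.Matrix.Transvection

/-!
# Robinson's matrix for the blocks with a given normal defect group
-/

set_option linter.style.haveILetI false
set_option linter.unusedSectionVars false

namespace Cfsg.Agent.BlockCover

open Cfsg
open Cfsg.Agent.Block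
open scoped ComplexConjugate Matrix

universe u

/-- The rank of a square matrix does not change in a field extension. -/
theorem rank_map_field {K L n : Type*} [Field K] [Field L] [Fintype n] [DecidableEq n]
    (f : K →+* L) (A : Matrix n n K) : (A.map f).rank = A.rank := by
  classical
  obtain ⟨T, T', w, h⟩ := Matrix.Pivot.exists_list_transvec_mul_mul_list_transvec_eq_diagonal A
  have hdet : ∀ (l : List (Matrix.TransvectionStruct n K)),
      IsUnit ((l.map Matrix.TransvectionStruct.toMatrix).prod).det := fun l => by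
    rw [Matrix.TransvectionStruct.det_toMatrix_prod]; exact isUnit_one
  set P := (T.map Matrix.TransvectionStruct.toMatrix).prod
  set P' := (T'.map Matrix.TransvectionStruct.toMatrix).prod
  have h1 : A.rank = (Matrix.diagonal w).rank := by
    rw [← h, Matrix.rank_mul_eq_left_of_isUnit_det _ _ (hdet T'),
      Matrix.rank_mul_eq_right_of_isUnit_det _ _ (hdet T)]
  have hd : ∀ (Q : Matrix n n K), IsUnit Q.det → IsUnit (Q.map f).det := fun Q hQ => by
    rw [← RingHom.mapMatrix_apply, ← RingHom.map_det]; exact hQ.map f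
  have h2 : (A.map f).rank = (Matrix.diagonal fun i => f (w i)).rank := by
    rw [← Matrix.diagonal_map (map_zero f), ← h, Matrix.map_mul,
      Matrix.map_mul, Matrix.rank_mul_eq_left_of_isUnit_det _ _ (hd _ (hdet T')),
      Matrix.rank_mul_eq_right_of_isUnit_det _ _ (hd _ (hdet T))]
  rw [h1, h2, Matrix.rank_diagonal, Matrix.rank_diagonal]
  exact Fintype.card_congr (Equiv.subtypeEquivRight fun i => (map_ne_zero f))

/-- Sandwiched matrices have the rank of the middle. -/
theorem rank_eq_card_of_factor {K ι β : Type*} [Field K] [Fintype ι] [DecidableEq ι] [Fintype β]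
    [DecidableEq β] (L : Matrix ι β K) (R : Matrix β ι K) (Y : Matrix ι β K) (Z : Matrix β ι K)
    (hR : R * Y = 1) (hL : Z * L = 1) : (L * R).rank = Fintype.card β := by
  refine le_antisymm ((Matrix.rank_mul_le_right L R).trans (Matrix.rank_le_card_height R)) ?_
  have h1 : Z * (L * R * Y) = 1 := by rw [Matrix.mul_assoc L R Y, hR, Matrix.mul_one, hL]
  calc Fintype.card β = (1 : Matrix β β K).rank := (Matrix.rank_one).symm
    _ = (Z * (L * R * Y)).rank := by rw [h1]
    _ ≤ (L * R * Y).rank := Matrix.rank_mul_le_right _ _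
    _ ≤ (L * R).rank := Matrix.rank_mul_le_left _ _

variable {G : Type u} [Group G] [Fintype G] {p : ℕ} [Fact p.Prime] {M : Ideal AlgInt} [M.IsPrime]

open scoped Classical in
/-- Pairs of conjugates of `y` and `z` with quotient in a subgroup, by characters. -/
theorem card_pairs_subgroup (y z : G) (S : Subgroup G) [Fintype S] :
    (Nat.card {yz : G × G // yz.1 ∈ (ConjClasses.mk y).carrier ∧
      yz.2 ∈ (ConjClasses.mk z).carrier ∧ yz.2 * yz.1⁻¹ ∈ S} : ℂ) =
    ∑ χ : IrrCharacter G, centralChar (χ : G → ℂ) y *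
      ((Subgroup.centralizer ({z} : Set G)).index : ℂ) * conj ((χ : G → ℂ) z) *
      (Nat.card G : ℂ)⁻¹ * ∑ s : S, (χ : G → ℂ) s := by
  set A := Finset.univ.filter fun a : G => IsConj y a
  set B := Finset.univ.filter fun a : G => IsConj z a
  let f : G → ℂ := fun g => ∑ a ∈ A, ∑ b ∈ B, if b * a⁻¹ = g then 1 else 0
  have hA : ∀ w : G, (Finset.univ.filter fun a : G => IsConj w a).card =
      (Subgroup.centralizer ({w} : Set G)).index := fun w => by
    rw [← ClassSize.ncard_setOf_isConj w, ← Set.ncard_coe_finset]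
    congr 1
    ext a
    simp
  have hf : IsClassFunction G f := by
    intro g h
    simp only [f]
    refine Finset.sum_equiv (MulAut.conj h⁻¹).toEquiv (fun a => ?_) fun a _ => ?_
    · simp only [A, Finset.mem_filter, Finset.mem_univ, true_and]
      exact ⟨fun hc => hc.trans (isConj_iff.2 ⟨h⁻¹, rfl⟩), fun hc =>
        hc.trans (isConj_iff.2 ⟨h⁻¹, rfl⟩).symm⟩
    refine Finset.sum_equiv (MulAut.conj h⁻¹).toEquiv (fun b => ?_) fun b _ => ?_
    · simp only [B, Finset.mem_filter, Finset.mem_univ, true_and]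
      exact ⟨fun hc => hc.trans (isConj_iff.2 ⟨h⁻¹, rfl⟩), fun hc =>
        hc.trans (isConj_iff.2 ⟨h⁻¹, rfl⟩).symm⟩
    refine if_congr ?_ rfl rfl
    simp only [MulEquiv.toEquiv_eq_coe, MulEquiv.coe_toEquiv, MulAut.conj_apply, inv_inv]
    constructor
    · intro e
      rw [show h⁻¹ * b * h * (h⁻¹ * a * h)⁻¹ = h⁻¹ * (b * a⁻¹) * h by group, e]
      group
    · intro e
      calc b * a⁻¹ = h * (h⁻¹ * b * h * (h⁻¹ * a * h)⁻¹) * h⁻¹ := by group
        _ = h * g * h⁻¹ := by rw [e]
  have hcoef : ∀ χ : IrrCharacter G, classInner f (χ : G → ℂ) =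
      centralChar (χ : G → ℂ) y * ((Subgroup.centralizer ({z} : Set G)).index : ℂ) *
        conj ((χ : G → ℂ) z) * (Nat.card G : ℂ)⁻¹ := by
    intro χ
    have h1 : ∑ g : G, f g * conj ((χ : G → ℂ) g) =
        ∑ a ∈ A, ∑ b ∈ B, conj ((χ : G → ℂ) (b * a⁻¹)) := by
      simp only [f, Finset.sum_mul]
      rw [Finset.sum_comm]
      refine Finset.sum_congr rfl fun a _ => ?_
      rw [Finset.sum_comm]
      refine Finset.sum_congr rfl fun b _ => ?_
      simp [ite_mul]
    have h2 : ∀ a : G, ∑ b ∈ B, conj ((χ : G → ℂ) (b * a⁻¹)) = (χ : G → ℂ) a / (χ : G → ℂ) 1 *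
        (((Subgroup.centralizer ({z} : Set G)).index : ℂ) * conj ((χ : G → ℂ) z)) := by
      intro a
      have h := Brauer.sum_class_mul_conj (Φ := fun w => if IsConj z w then (1 : ℂ) else 0)
        (fun x b => if_congr ⟨fun hc => hc.trans (isConj_iff.2 ⟨b⁻¹, by group⟩),
          fun hc => hc.trans (isConj_iff.2 ⟨b, rfl⟩)⟩ rfl rfl) χ.2 a
      simp only [ite_mul, one_mul, zero_mul, ← Finset.sum_filter] at h
      rw [h, ← hA z, Finset.sum_congr rfl (g := fun _ => conj ((χ : G → ℂ) z)) fun b hb => by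
        rw [Char.isClassFunction_eq_of_isConj (Char.irr_isClassFunction χ.2)
          (Finset.mem_filter.1 hb).2], Finset.sum_const, nsmul_eq_mul]
    rw [classInner, h1, Finset.sum_congr rfl fun a _ => h2 a, ← Finset.sum_mul, ← Finset.sum_div,
      Finset.sum_congr rfl (g := fun _ => (χ : G → ℂ) y) fun a ha => by
        rw [Char.isClassFunction_eq_of_isConj (Char.irr_isClassFunction χ.2)
          (Finset.mem_filter.1 ha).2], Finset.sum_const, nsmul_eq_mul, hA y, centralChar]
    ring
  have hN : (Nat.card {yz : G × G // yz.1 ∈ (ConjClasses.mk y).carrier ∧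
      yz.2 ∈ (ConjClasses.mk z).carrier ∧ yz.2 * yz.1⁻¹ ∈ S} : ℂ) = ∑ s : S, f s := by
    rw [Nat.card_eq_fintype_card, Fintype.card_subtype]
    simp only [f]
    rw [Finset.sum_comm]
    conv_rhs => enter [2, a]; rw [Finset.sum_comm]
    rw [← Finset.sum_product', show Finset.univ.filter (fun yz : G × G =>
        yz.1 ∈ (ConjClasses.mk y).carrier ∧ yz.2 ∈ (ConjClasses.mk z).carrier ∧ yz.2 * yz.1⁻¹ ∈ S) =
        (A ×ˢ B).filter fun yz => yz.2 * yz.1⁻¹ ∈ S by
      ext yz
      simp only [A, B, Finset.mem_filter, Finset.mem_product, Finset.mem_univ, true_and,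
        ConjClasses.mem_carrier_iff_mk_eq, ConjClasses.mk_eq_mk_iff_isConj]
      exact ⟨fun ⟨a, b, c⟩ => ⟨⟨a.symm, b.symm⟩, c⟩, fun ⟨⟨a, b⟩, c⟩ => ⟨a.symm, b.symm, c⟩⟩]
    rw [Finset.card_filter, Nat.cast_sum]
    refine Finset.sum_congr rfl fun yz _ => ?_
    by_cases hs : yz.2 * yz.1⁻¹ ∈ S
    · rw [if_pos hs, Finset.sum_eq_single (⟨_, hs⟩ : S)]
      · simp
      · intro s _ hne
        rw [if_neg fun e => hne (Subtype.ext e.symm)]
      · exact fun h => absurd (Finset.mem_univ _) h
    · rw [if_neg hs, Nat.cast_zero]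
      exact (Finset.sum_eq_zero fun s _ => if_neg fun e => hs (by rw [e]; exact s.2)).symm
  rw [hN]
  conv_lhs => rw [Char.eq_sum_classInner_smul hf]
  simp only [Finset.sum_apply, Pi.smul_apply, smul_eq_mul]
  rw [Finset.sum_comm]
  exact Finset.sum_congr rfl fun χ _ => by rw [← Finset.mul_sum, hcoef]

open scoped Classical in
/-- The residue of the central character of the block of `χ`. -/
noncomputable def blockLam (M : Ideal AlgInt) [M.IsPrime] (B : Set (IrrCharacter G)) (g : G) :
    ResF M :=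
  if h : B.Nonempty then redC M (centralChar (h.choose : G → ℂ) g) else 0

theorem blockLam_eq {B : Set (IrrCharacter G)} (hB : IsPBlock M B) {χ : IrrCharacter G}
    (hχ : χ ∈ B) (g : G) : blockLam M B g = redC M (centralChar (χ : G → ℂ) g) := by
  rw [blockLam, dif_pos ⟨χ, hχ⟩]
  exact redC_centralChar_eq_of_sameBlock (Subtype.prop _) χ.2
    (pBlock_sameBlock hB (Exists.choose_spec (⟨χ, hχ⟩ : B.Nonempty)) hχ) g

theorem isClassDefectGroup_inv {g : G} {D : Subgroup G} (h : IsClassDefectGroup p g D) :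
    IsClassDefectGroup p g⁻¹ D := by
  have e : Subgroup.centralizer ({g⁻¹} : Set G) = Subgroup.centralizer ({g} : Set G) := by
    ext x
    simp only [Subgroup.mem_centralizer_singleton_iff]
    exact ⟨fun h => by simpa using (Commute.inv_right (h : Commute x g⁻¹)).eq,
      fun h => (Commute.inv_right (h : Commute x g)).eq⟩
  unfold IsClassDefectGroup at h ⊢
  rwa [e]

variable (D : Subgroup G) [D.Normal] [Fintype (G ⧸ D)]

/-- The data of a class with defect group `D`. -/
theorem class_data (hM : IsPModular p M) {y : G} (hD : IsClassDefectGroup p y D) :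
    ∃ u : ℕ, ¬ p ∣ u ∧ Nat.card (Subgroup.centralizer ({y} : Set G)) = Nat.card D * u ∧
      Nat.card D = p ^ (Nat.card D).factorization p := by
  obtain ⟨k, hk⟩ := IsPGroup.iff_card.1 hD.isPGroup
  have hk' : (Nat.card D).factorization p = k := by
    rw [hk, hM.1.factorization_pow, Finsupp.single_eq_same]
  obtain ⟨u, hu⟩ := Subgroup.card_dvd_of_le hD.le_centralizer
  have hu0 : u ≠ 0 := fun h => Nat.card_pos.ne' (by rw [hu, h, mul_zero])
  refine ⟨u, fun hdvd => ?_, hu, by rw [hk']; exact hk⟩
  have h1 := factorization_card_eq_of_classDefect hD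
  rw [← Subgroup.card_mul_index (Subgroup.centralizer ({y} : Set G)),
    Nat.factorization_mul Nat.card_pos.ne' Subgroup.index_ne_zero_of_finite, Finsupp.add_apply,
    hu, Nat.factorization_mul Nat.card_pos.ne' hu0, Finsupp.add_apply] at h1
  exact (hM.1.factorization_pos_of_dvd hu0 hdvd).ne' (by omega)

end Cfsg.Agent.BlockCover
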