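import Cfsg.Agent.BlockCover.OmegaMatrix
import Cfsg.Agent.Char.DefectZero

/-!
# Robinson's theorem: blocks with a given normal defect group
-/

set_option linter.style.haveILetI false
set_option linter.unusedSectionVars false

namespace Cfsg.Agent.BlockCover

open Cfsg
open Cfsg.Agent.Block
open scoped ComplexConjugate Matrix

universe u

variable {G : Type u} [Group G] [Fintype G] {p : ℕ} [Fact p.Prime] {M : Ideal AlgInt} [M.IsPrime]
variable (D : Subgroup G) [D.Normal] [Fintype (G ⧸ D)]

/-- The multiplicity data of a character trivial on `D`. -/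
theorem inflated_of_sum_sylow_ne_zero [Fintype D] (S : Subgroup G) [Fintype S] (hDS : D ≤ S)
    (χ : IrrCharacter G) (h : ∑ s : S, (χ : G → ℂ) s ≠ 0) : ∃ β, inflIrr D β = χ := by
  have h0 : CharExt.avgN D (χ : G → ℂ) 1 ≠ 0 := by
    intro h0
    refine h ?_
    have hz : ∀ g, CharExt.avgN D (χ : G → ℂ) g = 0 := fun g => by
      rw [congrFun (CharExt.avgN_irr D χ.2) g, h0]; simp
    have h1 : ∑ s : S, ∑ n : D, (χ : G → ℂ) ((n : G) * s) = 0 :=
      Finset.sum_eq_zero fun s _ => by
        have := hz (s : G)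
        simp only [CharExt.avgN, mul_eq_zero, inv_eq_zero, Nat.cast_eq_zero,
          Nat.card_pos.ne', false_or] at this
        exact this
    rw [Finset.sum_comm, Finset.sum_congr rfl (g := fun _ => ∑ s : S, (χ : G → ℂ) s) fun (n : D) _ =>
      show ∑ s : S, (χ : G → ℂ) ((n : G) * s) = _ from Fintype.sum_equiv (Equiv.mulLeft (⟨n, hDS n.2⟩ : S)) _ _ fun s => rfl,
      Finset.sum_const, nsmul_eq_mul, mul_eq_zero, Nat.cast_eq_zero] at h1
    exact h1.resolve_left (Finset.card_ne_zero.2 Finset.univ_nonempty)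
  have hinv := CharExt.inv_of_constituent D χ.2 (by
    rw [CharExt.indFun_one_classInner D (Char.irr_isClassFunction χ.2)]
    simpa using h0)
  obtain ⟨β, hβ, hχβ⟩ := Char.irr_exists_descend χ.2 D fun n hn => by
    have := hinv ⟨n, hn⟩ 1
    rwa [mul_one] at this
  exact ⟨⟨β, hβ⟩, Subtype.ext (funext fun x => (hχβ x).symm)⟩

/-- The weight of a block: the squares of the reduced degrees of its members trivial on `D`. -/
noncomputable def blockWeight (p : ℕ) (M : Ideal AlgInt) [M.IsPrime]
    (B : Set (IrrCharacter G)) : ResF M :=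
  open scoped Classical in
  ∑ β : IrrCharacter (G ⧸ D), if inflIrr D β ∈ B then
    redC M (((charDegree (inflIrr D β : G → ℂ) /
      p ^ ((Nat.card G).factorization p - (Nat.card D).factorization p) : ℕ) : ℂ) ^ 2 *
      ((Nat.card G / p ^ (Nat.card G).factorization p : ℕ) : ℂ)⁻¹) else 0

open scoped Classical in
/-- Robinson's theorem. -/
theorem robinson_rank (hM : IsPModular p M) (hDp : IsPGroup p D) (S : Sylow p G)
    {ι : Type*} [Fintype ι] [DecidableEq ι] (y : ι → G)
    (hreg : ∀ i, ¬ p ∣ orderOf (y i)) (hdef : ∀ i, IsClassDefectGroup p (y i) D)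
    (hinj : ∀ i j, IsConj (y i) (y j) → i = j)
    (hcov : ∀ x, ¬ p ∣ orderOf x → IsClassDefectGroup p x D → ∃ i, IsConj (y i) x) :
    Nat.card {B : Set (IrrCharacter G) // IsPBlock M B ∧ IsDefectGroup p M B D} =
      (Matrix.of fun i j : ι => ((Nat.card {yz : G × G // yz.1 ∈ (ConjClasses.mk (y i)).carrier ∧
        yz.2 ∈ (ConjClasses.mk (y j)).carrier ∧ yz.2 * yz.1⁻¹ ∈ (S : Subgroup G)} /
        p ^ ((Nat.card G).factorization p - (Nat.card D).factorization p) : ℕ) : ZMod p)).rank := by
  classical
  have hp := hM.1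
  letI := Fintype.ofFinite D
  letI := Fintype.ofFinite (S : Subgroup G)
  haveI := charP_resF (M := M) hM
  set a := (Nat.card G).factorization p with ha
  set d := (Nat.card D).factorization p with hd
  set q := p ^ (a - d) with hq
  set n' := Nat.card G / p ^ a with hn'
  have hda : d ≤ a :=
    (Nat.factorization_le_iff_dvd Nat.card_pos.ne' Nat.card_pos.ne').2 D.card_subgroup_dvd_card p
  have hcardD : Nat.card D = p ^ d := by
    obtain ⟨k, hk⟩ := IsPGroup.iff_card.1 hDp
    rw [hd, hk, hp.factorization_pow, Finsupp.single_eq_same]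
  have hn'p : ¬ p ∣ n' := Nat.not_dvd_ordCompl hp Nat.card_pos.ne'
  have hcardG : Nat.card G = q * p ^ d * n' := by
    rw [hq, ← pow_add, Nat.sub_add_cancel hda]
    exact (Nat.ordProj_mul_ordCompl_eq_self _ _).symm
  have hq0 : (q : ℂ) ≠ 0 := Nat.cast_ne_zero.2 (pow_ne_zero _ hp.ne_zero)
  have hpd0 : ((p ^ d : ℕ) : ℂ) ≠ 0 := Nat.cast_ne_zero.2 (pow_ne_zero _ hp.ne_zero)
  have hn0 : (n' : ℂ) ≠ 0 := Nat.cast_ne_zero.2 fun h => hn'p (h ▸ dvd_zero p)
  have hcardS : Nat.card (S : Subgroup G) = q * p ^ d := by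
    rw [S.card_eq_multiplicity, hq, ← pow_add, Nat.sub_add_cancel hda]
  have hDS : D ≤ (S : Subgroup G) :=
    (Cores.le_pCore inferInstance hDp).trans (Cores.pCore_le_sylow S)
  choose u hu hcent _ using fun i => class_data D hM (hdef i)
  have hidx : ∀ i, ((Subgroup.centralizer ({y i} : Set G)).index : ℂ) =
      (q : ℂ) * n' / (u i : ℂ) := by
    intro i
    have h1 := (Subgroup.centralizer ({y i} : Set G)).card_mul_index
    rw [hcent, hcardD, hcardG] at h1
    have h2 : (u i : ℂ) ≠ 0 := Nat.cast_ne_zero.2 fun h => hu i (h ▸ dvd_zero p)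
    rw [eq_div_iff h2]
    have h3 : ((p ^ d * u i * (Subgroup.centralizer ({y i} : Set G)).index : ℕ) : ℂ) =
      ((q * p ^ d * n' : ℕ) : ℂ) := by rw [h1]
    simp only [Nat.cast_mul] at h3
    refine mul_left_cancel₀ hpd0 ?_
    linear_combination h3
  set BD := {B : Set (IrrCharacter G) // IsPBlock M B ∧ IsDefectGroup p M B D}
  haveI : Fintype BD := Fintype.ofFinite _
  -- multiplicities
  have hm : ∀ χ : IrrCharacter G, ∃ m : ℕ,
      ∑ s : (S : Subgroup G), (χ : G → ℂ) s = (Nat.card (S : Subgroup G) : ℂ) * m := by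
    intro χ
    obtain ⟨m, hm⟩ := Char.isCharacter_classInner_nat
      (CharInd.isCharacter_res (S : Subgroup G) (Char.isCharacter_of_irr χ.2))
      (Char.trivialIrr (S : Subgroup G))
    refine ⟨m, ?_⟩
    rw [← hm, classInner, ← mul_assoc, mul_inv_cancel₀ (Nat.cast_ne_zero.2 Nat.card_pos.ne'),
      one_mul]
    exact Finset.sum_congr rfl fun s _ => by simp [Char.trivialIrr]
  choose m hm using hm
  -- defect group `D`
  have hdz : ∀ β : IrrCharacter (G ⧸ D), IsDefectGroup p M (blockOf M (inflIrr D β : G → ℂ)) D →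
      ∃ c : ℕ, (inflIrr D β : G → ℂ) 1 = ((q * c : ℕ) : ℂ) ∧
        charDegree (inflIrr D β : G → ℂ) = q * c ∧ m (inflIrr D β) = c := by
    intro β hβ
    obtain ⟨e1, e0, e2⟩ := irr_one_eq_charDegree (inflIrr D β).2
    have hv : a - d ≤ (charDegree (inflIrr D β : G → ℂ)).factorization p := by
      have hcd := card_isDefectGroup hM (isPBlock_blockOf _) hβ
      rw [hcardD] at hcd
      have hbd := Nat.pow_right_injective hp.two_le hcd
      simp only [blockDefect] at hbd
      have hle := Nat.sInf_le (s := (fun χ : IrrCharacter G =>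
        (charDegree (χ : G → ℂ)).factorization p) '' blockOf M (inflIrr D β : G → ℂ))
        ⟨_, mem_blockOf_self _, rfl⟩
      dsimp only at hle
      omega
    have hqdvd : q ∣ charDegree (inflIrr D β : G → ℂ) :=
      (hp.pow_dvd_iff_le_factorization e0.ne').2 hv
    obtain ⟨c, hc⟩ := hqdvd
    refine ⟨c, by rw [e1, hc], hc, ?_⟩
    have hquot : ¬ p ^ (a - d + 1) ∣ Nat.card (G ⧸ D) := by
      rw [hp.pow_dvd_iff_le_factorization Nat.card_pos.ne']
      have h1 : (Nat.card D).factorization p + (Nat.card (G ⧸ D)).factorization p = a := by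
        rw [← Finsupp.add_apply, ← Nat.factorization_mul Nat.card_pos.ne' Nat.card_pos.ne',
          ← Subgroup.index_eq_card, Subgroup.card_mul_index]
      omega
    have hvan : ∀ s : (S : Subgroup G), (inflIrr D β : G → ℂ) s =
        if (s : G) ∈ D then (inflIrr D β : G → ℂ) 1 else 0 := by
      intro s
      have hval : (inflIrr D β : G → ℂ) s = (β : G ⧸ D → ℂ) ((s : G) : G ⧸ D) := rfl
      split_ifs with hs
      · rw [hval, (QuotientGroup.eq_one_iff (s : G)).2 hs]
        simp [inflIrr]
      · rw [hval]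
        refine Char.irr_defect_zero_vanish' β.2 hp hquot
          (d := q * c) (by rw [← hc, ← e1]; simp [inflIrr]) (dvd_mul_right _ _) _ ?_
        obtain ⟨k, hk⟩ := IsPGroup.iff_orderOf.mp S.isPGroup' s
        rw [← Subgroup.orderOf_coe] at hk
        obtain ⟨l, -, hl⟩ := (Nat.dvd_prime_pow hp).1
          (hk ▸ orderOf_map_dvd (QuotientGroup.mk' D) (s : G))
        rw [QuotientGroup.mk'_apply] at hl
        rw [hl]
        refine dvd_pow_self p fun h0 => hs ?_
        rw [h0, pow_zero, orderOf_eq_one_iff, QuotientGroup.eq_one_iff] at hl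
        exact hl
    have h1 := hm (inflIrr D β)
    rw [Finset.sum_congr rfl fun s _ => hvan s, ← Finset.sum_filter, Finset.sum_const,
      nsmul_eq_mul, hcardS, show (Finset.univ.filter fun s : (S : Subgroup G) => (s : G) ∈ D).card =
        Nat.card D from by
          rw [← Fintype.card_subtype, ← Nat.card_eq_fintype_card]
          exact Nat.card_congr
            { toFun := fun s => ⟨s.1.1, s.2⟩
              invFun := fun x => ⟨⟨x.1, hDS x.2⟩, x.2⟩
              left_inv := fun s => rfl
              right_inv := fun x => rfl }, hcardD, e1, hc] at h1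
    refine Nat.eq_of_mul_eq_mul_left (Nat.mul_pos (pow_pos hp.pos _) (pow_pos hp.pos d)
      : 0 < q * p ^ d) ?_
    have h2 : ((q * p ^ d * m (inflIrr D β) : ℕ) : ℂ) = ((p ^ d * (q * c) : ℕ) : ℂ) := by
      rw [Nat.cast_mul, ← h1, Nat.cast_mul (p ^ d)]
    rw [Nat.cast_inj.1 h2]; ring
  -- the exact entries
  set T : ι → ι → IrrCharacter G → ℂ := fun i j χ =>
    centralChar (χ : G → ℂ) (y i) * conj ((χ : G → ℂ) (y j)) * (m χ : ℂ) * (u j : ℂ)⁻¹
  have hTmem : ∀ i j χ, MemLocalRing M (T i j χ) := fun i j χ => by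
    refine (localRing M).mul_mem ((localRing M).mul_mem ((localRing M).mul_mem
      (centralChar_memLocalRing χ.2 _) ?_) (memLocalRing_natCast _))
      (memLocalRing_natCast_inv hM (hu j))
    rw [← Char.irr_inv χ.2]
    exact char_memLocalRing χ.2 _
  set N : ι → ι → ℕ := fun i j => Nat.card {yz : G × G //
    yz.1 ∈ (ConjClasses.mk (y i)).carrier ∧ yz.2 ∈ (ConjClasses.mk (y j)).carrier ∧
      yz.2 * yz.1⁻¹ ∈ (S : Subgroup G)} with hNdef
  have hN : ∀ i j, (N i j : ℂ) / (q : ℂ) = ∑ χ, T i j χ := by
    intro i j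
    rw [hNdef]
    simp only
    rw [card_pairs_subgroup, Finset.sum_div]
    refine Finset.sum_congr rfl fun χ _ => ?_
    rw [hm χ, hcardS, hidx j, hcardG]
    have h2 : (u j : ℂ) ≠ 0 := Nat.cast_ne_zero.2 fun h => hu j (h ▸ dvd_zero p)
    simp only [T, Nat.cast_mul]
    field_simp
  have hentry : ∀ i j, ((N i j / q : ℕ) : ResF M) = ∑ χ, redC M (T i j χ) := by
    intro i j
    rw [← redC_sum _ _ fun χ _ => hTmem i j χ, ← hN, ← redC_natCast]
    congr 1
    have hmem : MemLocalRing M ((N i j : ℂ) / (q : ℂ)) := by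
      rw [hN]; exact (localRing M).sum_mem fun χ _ => hTmem i j χ
    have hdvd : q ∣ N i j := by
      rcases Nat.eq_zero_or_pos (N i j) with h0 | hpos
      · rw [h0]; exact dvd_zero q
      · rw [hq, hp.pow_dvd_iff_le_factorization hpos.ne']
        have := (memLocalRing_natCast_div_iff hM hpos.ne' (pow_ne_zero (a - d) hp.ne_zero)).1 hmem
        rwa [hp.factorization_pow, Finsupp.single_eq_same] at this
    rw [Nat.cast_div hdvd hq0]
  -- the weights
  set c : BD → ResF M := fun B => blockWeight D p M B.1 with hc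
  set L : BD → ι → ResF M := fun B i => blockLam M B.1 (y i) with hL
  set L' : BD → ι → ResF M := fun B i => blockLam M B.1 (y i)⁻¹ with hL'
  have hW : ∀ i j, ∑ χ, redC M (T i j χ) = ∑ B : BD, L B i * (c B * L' B j) := by
    intro i j
    set F : IrrCharacter G → ResF M := fun χ => redC M (T i j χ)
    have hzero : ∀ χ, (¬ ∃ β, inflIrr D β = χ) → F χ = 0 := by
      intro χ hne
      have h0 : m χ = 0 := by
        by_contra h0
        refine hne (inflated_of_sum_sylow_ne_zero D (S : Subgroup G) hDS χ ?_)
        rw [hm]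
        exact mul_ne_zero (Nat.cast_ne_zero.2 Nat.card_pos.ne') (Nat.cast_ne_zero.2 h0)
      simp only [F, T, h0, Nat.cast_zero, mul_zero, zero_mul, redC_zero]
    have hsplit : ∑ χ, F χ = ∑ β : IrrCharacter (G ⧸ D), F (inflIrr D β) := by
      rw [← Finset.sum_subset (Finset.subset_univ (Finset.univ.image (inflIrr D)))
        (fun χ _ hχ => hzero χ fun ⟨β, h⟩ => hχ (Finset.mem_image.2 ⟨β, Finset.mem_univ _, h⟩)),
        Finset.sum_image fun x _ z _ h => inflIrr_injective D h]
    rw [hsplit]
    simp only [hc, blockWeight, Finset.sum_mul, Finset.mul_sum]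
    rw [Finset.sum_comm]
    refine Finset.sum_congr rfl fun β _ => ?_
    by_cases hB : IsDefectGroup p M (blockOf M (inflIrr D β : G → ℂ)) D
    · rw [Finset.sum_eq_single (⟨_, isPBlock_blockOf _, hB⟩ : BD)]
      · simp only [if_pos (mem_blockOf_self _), hL, hL',
          blockLam_eq (isPBlock_blockOf _) (mem_blockOf_self (inflIrr D β)), F]
        obtain ⟨e, he1, he2, he3⟩ := hdz β hB
        rw [he2, Nat.mul_div_cancel_left _ (pow_pos hp.pos _), ← hn']
        have hw : MemLocalRing M ((e : ℂ) ^ 2 * (n' : ℂ)⁻¹) := (localRing M).mul_mem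
          ((localRing M).pow_mem (memLocalRing_natCast e) 2) (memLocalRing_natCast_inv hM hn'p)
        rw [← redC_mul hw (centralChar_memLocalRing (inflIrr D β).2 _), ← redC_mul
          (centralChar_memLocalRing (inflIrr D β).2 _)
          ((localRing M).mul_mem hw (centralChar_memLocalRing (inflIrr D β).2 _))]
        congr 1
        simp only [T, he3]
        conv_rhs => arg 2; arg 2; rw [centralChar, he1, ← ClassSize.natCard_carrier,
          show Nat.card (ConjClasses.mk (y j)⁻¹).carrier =
            Nat.card (ConjClasses.mk (y j)).carrier by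
          rw [ClassSize.natCard_carrier, ClassSize.natCard_carrier]
          congr 1
          ext x
          simp only [Subgroup.mem_centralizer_singleton_iff]
          exact ⟨fun h => by simpa using (Commute.inv_right (h : Commute x (y j)⁻¹)).eq,
            fun h => (Commute.inv_right (h : Commute x (y j))).eq⟩,
          ClassSize.natCard_carrier, hidx, Char.irr_inv (inflIrr D β).2]
        have h2 : (u j : ℂ) ≠ 0 := Nat.cast_ne_zero.2 fun h => hu j (h ▸ dvd_zero p)
        have he0 : (e : ℂ) ≠ 0 := by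
          intro h0
          rw [Nat.cast_mul, h0, mul_zero] at he1
          exact Char.irr_one_ne_zero (inflIrr D β).2 he1
        simp only [Nat.cast_mul]
        field_simp
      · intro B _ hne
        rw [if_neg fun h => hne (Subtype.ext (pBlock_eq_of_mem B.2.1 (isPBlock_blockOf _) h
          (mem_blockOf_self _)))]
        ring
      · exact fun h => absurd (Finset.mem_univ _) h
    · have hl : F (inflIrr D β) = 0 := by
        have hid : MemLocalIdeal M (centralChar (inflIrr D β : G → ℂ) (y i)) := by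
          by_contra hne
          obtain ⟨E, hE⟩ := exists_isDefectGroup (p := p) (M := M) (isPBlock_blockOf (inflIrr D β))
          refine hB (isDefectGroup_of_card_le hM (isPBlock_blockOf _) hE
            (subConj_of_le (normal_le_isDefectGroup hM (isPBlock_blockOf _) hE hDp)) ?_)
          exact (subConj_of_centralChar_unit hM (isPBlock_blockOf _) hE (mem_blockOf_self _)
            (hdef i) hne).card_le
        simp only [F]
        rw [redC_eq_zero_iff (hTmem i j _)]
        simp only [T, mul_assoc]
        refine memLocalIdeal_mul_right hid ((localRing M).mul_mem ?_ ((localRing M).mul_mem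
          (memLocalRing_natCast _) (memLocalRing_natCast_inv hM (hu j))))
        rw [← Char.irr_inv (inflIrr D β).2]
        exact char_memLocalRing (inflIrr D β).2 _
      rw [hl]
      refine (Finset.sum_eq_zero fun B _ => ?_).symm
      rw [if_neg fun h => hB ?_]
      · ring
      · rw [← pBlock_eq_of_mem B.2.1 (isPBlock_blockOf _) h (mem_blockOf_self _)]
        exact B.2.2
  -- orthogonality
  set U : ι → ResF M := fun i => redC M ((u i : ℂ) * (n' : ℂ)⁻¹)
  have hcoef : ∀ (B : BD) i, (idemF M B.1).coeff (y i) = U i * (c B * L' B i) := by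
    intro B i
    rw [coeff_idemF B.2.1]
    have hsum : blockCoeff B.1 (y i) =
        blockCoeff {β : IrrCharacter (G ⧸ D) | inflIrr D β ∈ B.1} ((y i : G) : G ⧸ D) := by
      rw [blockCoeff_quot, Finset.sum_eq_single (1 : D)]
      · simp
      · intro w _ hne
        by_contra h0
        refine hne (Subtype.ext ?_)
        have hcomm : Commute (y i) (w : G) :=
          (Subgroup.mem_centralizer_singleton_iff.1 ((hdef i).le_centralizer w.2) :
            (w : G) * y i = y i * w).symm
        refine Brauer.eq_one_of_mul_regular hDp w.2 hcomm (hreg i) fun hs => h0 ?_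
        rw [← hcomm.eq] at *
        exact Brauer.blockCoeff_eq_zero_of_integral hM B.1 (blockCoeff_memLocalRing B.2.1) hs
      · exact fun h => absurd (Finset.mem_univ _) h
    rw [hsum, blockCoeff_eq_sum, Finset.mul_sum, Finset.sum_filter]
    simp only [hc, blockWeight, Finset.sum_mul, Finset.mul_sum, U]
    rw [redC_sum _ _ ?_]
    · refine Finset.sum_congr rfl fun β _ => ?_
      by_cases hβ : inflIrr D β ∈ B.1
      · rw [if_pos (show β ∈ {β | inflIrr D β ∈ B.1} from hβ), if_pos hβ]
        simp only [hL', blockLam_eq B.2.1 hβ]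
        have hblock : blockOf M (inflIrr D β : G → ℂ) = B.1 := (pBlock_eq B.2.1 hβ).symm
        obtain ⟨e, he1, he2, he3⟩ := hdz β (by rw [hblock]; exact B.2.2)
        rw [he2, Nat.mul_div_cancel_left _ (pow_pos hp.pos _), ← hn']
        have hw : MemLocalRing M ((e : ℂ) ^ 2 * (n' : ℂ)⁻¹) := (localRing M).mul_mem
          ((localRing M).pow_mem (memLocalRing_natCast e) 2) (memLocalRing_natCast_inv hM hn'p)
        rw [← redC_mul hw (centralChar_memLocalRing (inflIrr D β).2 _), ← redC_mul
          ((localRing M).mul_mem (memLocalRing_natCast _) (memLocalRing_natCast_inv hM hn'p))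
          ((localRing M).mul_mem hw (centralChar_memLocalRing (inflIrr D β).2 _))]
        congr 1
        have hidx' : ((Subgroup.centralizer ({(y i)⁻¹} : Set G)).index : ℂ) =
            (q : ℂ) * n' / (u i : ℂ) := by
          rw [← hidx]
          congr 2
          ext x
          simp only [Subgroup.mem_centralizer_singleton_iff]
          exact ⟨fun h => by simpa using (Commute.inv_right (h : Commute x (y i)⁻¹)).eq,
            fun h => (Commute.inv_right (h : Commute x (y i))).eq⟩
        have hquot : (Nat.card (G ⧸ D) : ℂ) = (q : ℂ) * n' := by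
          have h1 := card_eq_mul_card_quot (G := G) D
          rw [hcardD, hcardG, Nat.cast_mul, Nat.cast_mul] at h1
          refine mul_left_cancel₀ hpd0 ?_
          linear_combination -h1
        have hb1 : (β : G ⧸ D → ℂ) 1 = ((q * e : ℕ) : ℂ) := by rw [← he1]; simp [inflIrr]
        have hby : conj ((β : G ⧸ D → ℂ) ((y i : G) : G ⧸ D)) =
            (inflIrr D β : G → ℂ) (y i)⁻¹ := by
          rw [Char.irr_inv (inflIrr D β).2]; rfl
        rw [hb1, hby, hquot, centralChar, hidx', he1]
        have h2 : (u i : ℂ) ≠ 0 := Nat.cast_ne_zero.2 fun h => hu i (h ▸ dvd_zero p)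
        have he0 : (e : ℂ) ≠ 0 := by
          intro h0
          rw [Nat.cast_mul, h0, mul_zero] at he1
          exact Char.irr_one_ne_zero (inflIrr D β).2 he1
        simp only [Nat.cast_mul]
        field_simp
      · rw [if_neg (show β ∉ {β | inflIrr D β ∈ B.1} from hβ), if_neg hβ, redC_zero]; ring
    · intro β _
      split_ifs with hβ
      · have hblock : blockOf M (inflIrr D β : G → ℂ) = B.1 := (pBlock_eq B.2.1 hβ).symm
        obtain ⟨e, he1, -, -⟩ := hdz β (by rw [hblock]; exact B.2.2)
        have hb1 : (β : G ⧸ D → ℂ) 1 = ((q * e : ℕ) : ℂ) := by rw [← he1]; simp [inflIrr]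
        have hquot : (Nat.card (G ⧸ D) : ℂ) = (q : ℂ) * n' := by
          have h1 := card_eq_mul_card_quot (G := G) D
          rw [hcardD, hcardG, Nat.cast_mul, Nat.cast_mul] at h1
          refine mul_left_cancel₀ hpd0 ?_
          linear_combination -h1
        rw [hb1, hquot]
        have : ((q : ℂ) * (n' : ℂ))⁻¹ *
            (((q * e : ℕ) : ℂ) * conj ((β : G ⧸ D → ℂ) ((y i : G) : G ⧸ D))) =
            (n' : ℂ)⁻¹ * ((e : ℂ) * conj ((β : G ⧸ D → ℂ) ((y i : G) : G ⧸ D))) := by
          simp only [Nat.cast_mul]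
          field_simp
        rw [this]
        refine (localRing M).mul_mem (memLocalRing_natCast_inv hM hn'p)
          ((localRing M).mul_mem (memLocalRing_natCast e) ?_)
        rw [← Char.irr_inv β.2]
        exact char_memLocalRing β.2 _
      · exact (localRing M).zero_mem
  have horth : ∀ B B' : BD, ∑ i, L B i * (U i * (c B' * L' B' i)) = if B = B' then 1 else 0 := by
    intro B B'
    obtain ⟨χ, hχ⟩ := pBlock_nonempty B.2.1
    have h1 : lam M (χ : G → ℂ) (idemF M B'.1) = if B = B' then 1 else 0 := by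
      split_ifs with h
      · exact lam_idemF_of_mem B'.2.1 (h ▸ hχ)
      · exact lam_idemF_of_notMem B'.2.1 fun hχ' => h (Subtype.ext
          (pBlock_eq_of_mem B.2.1 B'.2.1 hχ hχ'))
    rw [← h1, lam, finsum_eq_sum_of_fintype]
    have hout : ∀ i, IsConj (y i) (ConjClasses.mk (y i)).out := fun i =>
      ConjClasses.mk_eq_mk_iff_isConj.1 (Quotient.out_eq (ConjClasses.mk (y i))).symm
    rw [← Finset.sum_subset (Finset.subset_univ (Finset.univ.image fun i => ConjClasses.mk (y i)))
      ?_, Finset.sum_image fun i _ j _ h => hinj i j (ConjClasses.mk_eq_mk_iff_isConj.1 h)]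
    · refine Finset.sum_congr rfl fun i _ => ?_
      obtain ⟨x, hx⟩ := isConj_iff.1 (hout i)
      rw [← hx, idemF_isCentralElt B'.1 (y i) x, hcoef B' i,
        centralChar_conj (Char.irr_isClassFunction χ.2), hL]
      simp only [blockLam_eq B.2.1 hχ]
      ring
    · intro k _ hk
      set x := k.out with hx
      by_cases hxs : p ∣ orderOf x
      · rw [coeff_idemF B'.2.1, Brauer.blockCoeff_eq_zero_of_integral hM B'.1
          (blockCoeff_memLocalRing B'.2.1) hxs, redC_zero, zero_mul]
      by_contra hne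
      obtain ⟨E, hE⟩ := exists_isClassDefectGroup (p := p) x
      have h2 := subConj_of_blockCoeff_unit hM B'.2.1 B'.2.2 hE
        ((coeff_idemF_ne_zero_iff B'.2.1 x).1 (left_ne_zero_of_mul hne))
      have h3 := subConj_of_centralChar_unit hM B.2.1 B.2.2 hχ hE fun hmem =>
        right_ne_zero_of_mul hne ((redC_eq_zero_iff (centralChar_memLocalRing χ.2 x)).2 hmem)
      obtain ⟨z, hz⟩ := h3.antisymm h2
      have hDz : D.map (MulAut.conj z).toMonoidHom = D := by
        ext w
        constructor
        · rintro ⟨v, hv, rfl⟩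
          exact (inferInstance : D.Normal).conj_mem v hv z
        · intro hw
          exact ⟨z⁻¹ * w * z⁻¹⁻¹, (inferInstance : D.Normal).conj_mem w hw z⁻¹, by
            simp [mul_assoc]⟩
      rw [hDz] at hz
      obtain ⟨i, hi⟩ := hcov x hxs (hz ▸ hE)
      refine hk (Finset.mem_image.2 ⟨i, Finset.mem_univ _, ?_⟩)
      rw [ConjClasses.mk_eq_mk_iff_isConj.2 hi, hx]
      exact Quotient.out_eq k
  -- the rank
  let φ : ZMod p →+* ResF M := ZMod.castHom dvd_rfl (ResF M)
  set W := (Matrix.of fun i j : ι => ((N i j / q : ℕ) : ZMod p)) with hWdef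
  show Nat.card BD = W.rank
  rw [← rank_map_field φ W, Nat.card_eq_fintype_card]
  set A : Matrix BD ι (ResF M) := Matrix.of L
  set R : Matrix BD ι (ResF M) := Matrix.of fun B i => c B * L' B i
  have hfac : W.map φ = Aᵀ * R := by
    ext i j
    simp only [hWdef, Matrix.map_apply, Matrix.of_apply, map_natCast, hentry, hW, Matrix.mul_apply,
      Matrix.transpose_apply, A, R]
  have h1 : Matrix.of (fun (B : BD) i => U i * (c B * L' B i)) * Aᵀ = 1 := by
    ext B' B
    rw [Matrix.mul_apply, Matrix.one_apply]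
    simp only [Matrix.transpose_apply, Matrix.of_apply, A]
    rw [Finset.sum_congr rfl fun i _ => mul_comm (U i * (c B' * L' B' i)) (L B i), horth]
    exact if_congr ⟨Eq.symm, Eq.symm⟩ rfl rfl
  have h2 : R * Matrix.of (fun i (B : BD) => U i * L B i) = 1 := by
    rw [← h1]
    ext B' B
    simp only [Matrix.mul_apply, Matrix.transpose_apply, Matrix.of_apply, A, R]
    exact Finset.sum_congr rfl fun i _ => by ring
  rw [hfac, rank_eq_card_of_factor Aᵀ R _ _ h2 h1]

end Cfsg.Agent.BlockCover
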