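import Cfsg.Agent.BlockCover.FongReynolds
import Cfsg.Agent.BlockCover.Unique
import Cfsg.Agent.Brauer.Fong
import Cfsg.Agent.S4436

/-!
# Full defect for the block induced from a root in `P C_G(P)`
-/

set_option linter.style.haveILetI false
set_option linter.unusedSectionVars false

namespace Cfsg.Agent.BlockCover

open Cfsg
open Cfsg.Agent.Block
open scoped ComplexConjugate

universe u

section Transport

variable {K L : Type u} [Group K] [Group L] [Fintype K] [Fintype L] {p : ℕ} [Fact p.Prime]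
variable {M : Ideal AlgInt} (e : K ≃* L)

theorem blockCoeff_image_irrComp (b : Set (IrrCharacter L)) (k : K) :
    blockCoeff (Brauer.irrComp e '' b) k = blockCoeff b (e k) := by
  classical
  rw [blockCoeff_eq_sum, blockCoeff_eq_sum, Nat.card_congr e.toEquiv]
  congr 1
  symm
  refine Finset.sum_equiv (Brauer.irrComp e) (fun θ => ?_) fun θ _ => ?_
  · simp
  · rw [Brauer.coe_irrComp, Function.comp_apply, Function.comp_apply, map_one]

theorem blockDefect_image_irrComp (b : Set (IrrCharacter L)) :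
    blockDefect p (Brauer.irrComp e '' b) = blockDefect p b := by
  unfold blockDefect
  rw [Set.image_image, Nat.card_congr e.toEquiv]
  congr 3
  funext θ
  unfold charDegree
  rw [Brauer.coe_irrComp, Function.comp_apply, map_one]

theorem isDefectGroup_image_irrComp {b : Set (IrrCharacter L)} {D : Subgroup L}
    (hD : IsDefectGroup p M b D) :
    IsDefectGroup p M (Brauer.irrComp e '' b) (D.comap e.toMonoidHom) := by
  obtain ⟨g, ⟨h1, h2, h3⟩, hgD⟩ := isDefectGroup_iff.1 hD
  refine isDefectGroup_iff.2 ⟨e.symm g, ⟨?_, ?_, ?_⟩, ?_⟩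
  · rw [blockCoeff_image_irrComp, e.apply_symm_apply]; exact h1
  · rw [blockCoeff_image_irrComp, e.apply_symm_apply]; exact h2
  · rintro _ ⟨θ, hθ, rfl⟩
    rw [Brauer.coe_irrComp, Brauer.centralChar_comp_equiv, e.apply_symm_apply]
    exact h3 θ hθ
  · have hc : Subgroup.centralizer ({e.symm g} : Set K) =
        (Subgroup.centralizer ({g} : Set L)).map e.symm.toMonoidHom := by
      ext y
      rw [Subgroup.mem_map_equiv, Subgroup.mem_centralizer_singleton_iff,
        Subgroup.mem_centralizer_singleton_iff, MulEquiv.symm_symm]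
      constructor
      · intro h; simpa using congrArg e h
      · intro h; simpa using congrArg e.symm h
    have hD' : D.comap e.toMonoidHom = D.map e.symm.toMonoidHom :=
      Subgroup.comap_equiv_eq_map_symm' e D
    refine isClassDefectGroup_of_card ?_ ?_
    · rw [hc, hD']; exact Subgroup.map_mono hgD.le_centralizer
    · rw [hc, hD', Subgroup.card_map_of_injective (f := e.symm.toMonoidHom) e.symm.injective,
        Subgroup.card_map_of_injective (f := e.symm.toMonoidHom) e.symm.injective]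
      exact hgD.card_eq

end Transport

variable {G : Type u} [Group G] [Fintype G] {p : ℕ} [Fact p.Prime] {M : Ideal AlgInt}

/-- The root criterion in the normaliser: `P` is normal. -/
theorem isDefectGroup_iff_of_normal (hM : IsPModular p M) (P : Subgroup G) [P.Normal]
    (hP : IsPGroup p P) (H : Subgroup G) [H.Normal] [Fintype H] (hPH : P ≤ H)
    (hC : Subgroup.centralizer (P : Set G) ≤ H) (b : Set (IrrCharacter H)) (hb : IsPBlock M b)
    (hbP : IsDefectGroup p M b (P.subgroupOf H)) (B : Set (IrrCharacter G))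
    (hind : IsInducedBlock M H b B) (T : Subgroup G)
    (hT : ∀ g : G, g ∈ T ↔ ∀ θ ∈ b, Brauer.conjIrr H g θ ∈ b) :
    IsDefectGroup p M B P ↔ ¬ p ∣ H.relIndex T := by
  classical
  haveI : M.IsPrime := hM.2.1.isPrime
  have hp := (Fact.out : p.Prime)
  have hHT : H ≤ T := fun g hg => (hT g).2 fun θ hθ => by
    have h1 : Brauer.conjIrr H g θ = θ := Subtype.ext (funext fun h => by
      show CharInd.conjChar H g (θ : H → ℂ) h = (θ : H → ℂ) h
      rw [CharInd.conjChar_apply]
      exact Char.irr_isClassFunction θ.2 h ⟨g, hg⟩)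
    rwa [h1]
  letI := Fintype.ofFinite T
  obtain ⟨ξ, hξ⟩ := pBlock_nonempty hb
  obtain ⟨χ, hχ, hχξ⟩ := exists_over_of_induced hM hind hξ
  obtain ⟨B', hB', hc', hi'⟩ :=
    exists_inducing_block hHT hT hM hb hind.2.1 ⟨χ, hχ, ξ, hξ, hχξ⟩
  -- transfer to `T`
  letI := Fintype.ofFinite (H.subgroupOf T)
  set e := Subgroup.subgroupOfEquivOfLe hHT with he
  set b' := Brauer.irrComp e '' b with hb'd
  have hb' : IsPBlock M b' := Brauer.isPBlock_image_irrComp e hb
  have hres : ∀ (ψ : IrrCharacter T) (θ : IrrCharacter H),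
      classInner (fun x : H.subgroupOf T => (ψ : T → ℂ) x)
        (Brauer.irrComp e θ : H.subgroupOf T → ℂ) = classInner (resN hHT (ψ : T → ℂ)) (θ : H → ℂ) :=
    fun ψ θ => classInner_res_equiv e (resN hHT (ψ : T → ℂ)) (θ : H → ℂ)
  have hinv : ∀ (x : T), ∀ η ∈ b', Brauer.conjIrr (H.subgroupOf T) x η ∈ b' := by
    rintro x _ ⟨θ, hθ, rfl⟩
    refine ⟨Brauer.conjIrr H (x : G) θ, (hT x).1 x.2 θ hθ, Subtype.ext (funext fun n => ?_)⟩
    show CharInd.conjChar H (x : G) (θ : H → ℂ) (e n) =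
      CharInd.conjChar (H.subgroupOf T) x (Brauer.irrComp e θ : H.subgroupOf T → ℂ) n
    rw [CharInd.conjChar_apply, CharInd.conjChar_apply]
    rfl
  have huniq : ∀ B'' : Set (IrrCharacter T), IsPBlock M B'' →
      (∃ ψ ∈ B'', ∃ η ∈ b',
        classInner (fun x : H.subgroupOf T => (ψ : T → ℂ) x) (η : H.subgroupOf T → ℂ) ≠ 0) →
      B'' = B' := by
    rintro B'' hB'' ⟨ψ, hψ, _, ⟨θ, hθ, rfl⟩, h⟩
    rw [hres] at h
    obtain ⟨A, hA, hAcov, -⟩ := induced_block hHT hT hM hb hB'' ⟨ψ, hψ, θ, hθ, h⟩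
    have hAB : A = B := covering_unique H hM hb hPH hbP hC hA.2.1 hind.2.1 hAcov
      ⟨χ, hχ, ξ, hξ, hχξ⟩
    subst hAB
    exact induced_block_injective hHT hT hM hb hB'' hB' ⟨ψ, hψ, θ, hθ, h⟩ hc' hA hi'
  obtain ⟨P', hP'⟩ := exists_isDefectGroup (p := p) (M := M) hB'
  obtain ⟨ψ, hψ, θ, hθ, hψθ⟩ := hc'
  obtain ⟨-, -, hdef⟩ := Brauer.fong (H.subgroupOf T) hM hb' hinv hB'
    ⟨ψ, hψ, Brauer.irrComp e θ, ⟨θ, hθ, rfl⟩, by rw [hres]; exact hψθ⟩
    (fun B'' h'' hc'' => by rw [huniq B'' h'' hc'']) hP'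
  rw [hb'd, blockDefect_image_irrComp] at hdef
  have hTs : ∀ g : G, g ∈ T ↔ ∀ θ ∈ b, ∀ θ' : IrrCharacter H,
      (∀ n : H, (θ' : H → ℂ) n = (θ : H → ℂ) ⟨g * n * g⁻¹, Subgroup.Normal.conj_mem (inferInstance : H.Normal) (n : G) n.2 g⟩) →
      θ' ∈ b := by
    intro g
    rw [hT g]
    refine ⟨fun h θ hθ θ' hθ' => ?_, fun h θ hθ => h θ hθ _ fun n => ?_⟩
    · rw [show θ' = Brauer.conjIrr H g θ from Subtype.ext (funext fun n => by
        rw [hθ' n]; exact (CharInd.conjChar_apply H g (θ : H → ℂ) n).symm)]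
      exact h θ hθ
    · exact CharInd.conjChar_apply H g (θ : H → ℂ) n
  have hDG := (S4436.result p M hM H b hb T hTs hHT B' hB' ⟨ψ, hψ, θ, hθ, hψθ⟩ B hi').1 P' hP'
  have hcardP : Nat.card P = p ^ blockDefect p b := by
    rw [← Nat.card_congr (Subgroup.subgroupOfEquivOfLe hPH).toEquiv]
    exact card_isDefectGroup hM hb hbP
  have hcard : Nat.card (P'.map T.subtype) = Nat.card P * p ^ (H.relIndex T).factorization p := by
    rw [Subgroup.card_map_of_injective (f := T.subtype) T.subtype_injective,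
      card_isDefectGroup hM hB' hP', hdef, hcardP, pow_add]
    rfl
  have hrel : H.relIndex T ≠ 0 := Subgroup.index_ne_zero_of_finite
  refine ⟨fun hBP hdvd => ?_, fun hdvd => ?_⟩
  · rw [card_isDefectGroup hM hind.2.1 hDG, ← card_isDefectGroup hM hind.2.1 hBP] at hcard
    have h1 : p ^ (H.relIndex T).factorization p = 1 :=
      Nat.eq_of_mul_eq_mul_left Nat.card_pos (by rw [mul_one]; exact hcard.symm)
    have h2 := hp.factorization_pos_of_dvd hrel hdvd
    rcases Nat.pow_eq_one.1 h1 with h | h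
    · exact hp.ne_one h
    · exact h2.ne' h
  · rw [Nat.factorization_eq_zero_of_not_dvd hdvd, pow_zero, mul_one] at hcard
    have hle : P ≤ P'.map T.subtype := normal_le_isDefectGroup hM hind.2.1 hDG hP
    rwa [Subgroup.eq_of_le_of_card_ge hle hcard.le]

/-- The root criterion. -/
theorem isDefectGroup_iff_stabilizer (hM : IsPModular p M) (P : Subgroup G) (hP : IsPGroup p P)
    (H : Subgroup G) [Fintype H] (hH : H = P ⊔ Subgroup.centralizer (P : Set G))
    (b : Set (IrrCharacter H)) (hb : IsPBlock M b) (hbP : IsDefectGroup p M b (P.subgroupOf H))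
    (B : Set (IrrCharacter G)) (hind : IsInducedBlock M H b B) (T : Subgroup G)
    (hT : ∀ g : G, g ∈ T ↔ (g ∈ Subgroup.normalizer (P : Set G) ∧ ∀ θ ∈ b,
      ∀ θ' : IrrCharacter H, (∀ h h' : H, (h' : G) = g * h * g⁻¹ →
        (θ' : H → ℂ) h' = (θ : H → ℂ) h) → θ' ∈ b)) :
    IsDefectGroup p M B P ↔ ¬ p ∣ H.relIndex T := by
  classical
  haveI : M.IsPrime := hM.2.1.isPrime
  set K := Subgroup.normalizer (P : Set G) with hK
  letI := Fintype.ofFinite K
  have hPH : P ≤ H := hH ▸ le_sup_left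
  have hCH : Subgroup.centralizer (P : Set G) ≤ H := hH ▸ le_sup_right
  have hHK : H ≤ K := hH ▸ le_normalizer_sup_centralizer P
  have hPK : P ≤ K := hPH.trans hHK
  haveI : (P.subgroupOf K).Normal := normal_subgroupOf_normalizer P
  have hconjH : ∀ g ∈ K, ∀ h ∈ H, g * h * g⁻¹ ∈ H := by
    intro g hg h hh
    have hmap : H.map (MulAut.conj g).toMonoidHom ≤ H := by
      rw [hH, Subgroup.map_sup]
      refine sup_le_sup ?_ ?_
      · rintro _ ⟨u, hu, rfl⟩
        exact (Subgroup.mem_normalizer_iff.1 hg u).1 hu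
      · rintro _ ⟨u, hu, rfl⟩
        exact (conj_mem_centralizer_iff hg u).2 hu
    exact hmap ⟨h, hh, rfl⟩
  haveI : (H.subgroupOf K).Normal := ⟨fun h hh g => hconjH g g.2 h hh⟩
  letI := Fintype.ofFinite (H.subgroupOf K)
  set e := Subgroup.subgroupOfEquivOfLe hHK with he
  set bK := Brauer.irrComp e '' b with hbK
  have hbKb : IsPBlock M bK := Brauer.isPBlock_image_irrComp e hb
  have hbKP : IsDefectGroup p M bK ((P.subgroupOf K).subgroupOf (H.subgroupOf K)) := by
    have h1 := isDefectGroup_image_irrComp e hbP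
    exact h1
  have hCK : Subgroup.centralizer ((P.subgroupOf K : Subgroup K) : Set K) ≤ H.subgroupOf K :=
    fun x hx => hCH ((centralizer_subgroupOf_iff hPK x).1 hx)
  obtain ⟨β, hβ⟩ := inducedBlockDefined_of_brauer hM hP.comap_subtype
    (Subgroup.comap_mono hPH : P.subgroupOf K ≤ H.subgroupOf K) hCK
    (le_top.trans_eq (Subgroup.normalizer_eq_top (H := P.subgroupOf K)).symm) hbKb
  have hβB : IsInducedBlock M K β B := Brauer.isInducedBlock_trans hHK hind hβ
  have hTK : T ≤ K := fun g hg => ((hT g).1 hg).1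
  have hstab : ∀ k : K, k ∈ T.subgroupOf K ↔
      ∀ η ∈ bK, Brauer.conjIrr (H.subgroupOf K) k η ∈ bK := by
    intro k
    rw [Subgroup.mem_subgroupOf, hT]
    constructor
    · rintro ⟨-, h⟩ _ ⟨θ, hθ, rfl⟩
      have hinv : (k : G)⁻¹ ∈ K := inv_mem k.2
      have hTinv : (k : G)⁻¹ ∈ T := inv_mem ((hT k).2 ⟨k.2, h⟩)
      set θ' : IrrCharacter H := (Brauer.irrComp e).symm
        (Brauer.conjIrr (H.subgroupOf K) k (Brauer.irrComp e θ)) with hθ'
      refine ⟨θ', ((hT _).1 hTinv).2 θ hθ θ' fun x y hy => ?_, (Brauer.irrComp e).apply_symm_apply _⟩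
      show CharInd.conjChar (H.subgroupOf K) k
        (Brauer.irrComp e θ : H.subgroupOf K → ℂ) (e.symm y) = _
      rw [CharInd.conjChar_apply]
      refine congrArg (θ : H → ℂ) (Subtype.ext ?_)
      show (k : G) * (y : G) * (k : G)⁻¹ = x
      rw [hy]
      group
    · intro h
      refine ⟨k.2, fun θ hθ θ' hθ' => ?_⟩
      have hkinv : ∀ η ∈ bK, Brauer.conjIrr (H.subgroupOf K) k⁻¹ η ∈ bK := by
        intro η hη
        obtain ⟨n, hn⟩ : ∃ n : ℕ, k⁻¹ = k ^ n := ⟨orderOf k - 1, by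
          rw [inv_eq_iff_mul_eq_one, ← pow_succ', Nat.sub_add_cancel (orderOf_pos k),
            pow_orderOf_eq_one]⟩
        rw [hn]
        clear hn
        induction n with
        | zero => rwa [pow_zero, Brauer.conjIrr_one]
        | succ n ih => rw [pow_succ, Brauer.conjIrr_mul]; exact h _ ih
      obtain ⟨η, hη, hηe⟩ := hkinv _ ⟨θ, hθ, rfl⟩
      rwa [show θ' = η from Subtype.ext (funext fun y => ?_)]
      have h1 := congrArg (fun φ : IrrCharacter (H.subgroupOf K) =>
        (φ : H.subgroupOf K → ℂ) (e.symm y)) hηe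
      change (η : H → ℂ) (e (e.symm y)) = CharInd.conjChar (H.subgroupOf K) k⁻¹
        (Brauer.irrComp e θ : H.subgroupOf K → ℂ) (e.symm y) at h1
      rw [e.apply_symm_apply, CharInd.conjChar_apply] at h1
      rw [h1]
      refine hθ' _ y ?_
      show (y : G) = (k : G) * ((k : G)⁻¹ * (y : G) * ((k : G)⁻¹)⁻¹) * (k : G)⁻¹
      group
  have key := isDefectGroup_iff_of_normal hM (P.subgroupOf K) hP.comap_subtype (H.subgroupOf K)
    (Subgroup.comap_mono hPH) hCK bK hbKb hbKP β hβ (T.subgroupOf K) hstab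
  rw [Subgroup.relIndex_subgroupOf hTK] at key
  rw [← key]
  refine ⟨fun hBP => ?_, fun h => isDefectGroup_of_induced_normalizer hM hP h hβB⟩
  obtain ⟨D, hD⟩ := exists_isDefectGroup (p := p) (M := M) hβ.2.1
  rwa [← defectGroup_root_eq hM hPK le_rfl hβB hBP hD]

end Cfsg.Agent.BlockCover
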