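import Cfsg.Agent.BlockCover.Vanishing

/-!
# The induction for the theorem of Kiyota and Okuyama
-/

set_option linter.style.haveILetI false
set_option linter.unusedSectionVars false

namespace Cfsg.Agent.BlockCover

open Cfsg
open Cfsg.Agent.Block
open scoped ComplexConjugate

universe u

variable {G : Type u} [Group G] [Fintype G] {p : ℕ} {M : Ideal AlgInt} [M.IsPrime]

/-- Pulling back along a surjection with kernel prime to `p`. -/
theorem blockCoeff_comp {X : Type u} [Group X] [Fintype X] [Fact p.Prime] (f : X →* G)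
    (hsurj : Function.Surjective f) (U : Set (IrrCharacter G)) (x : X) :
    blockCoeff {χ : IrrCharacter X | ∃ u ∈ U, (χ : X → ℂ) = (u : G → ℂ) ∘ f} x =
      (Nat.card f.ker : ℂ)⁻¹ * blockCoeff U (f x) := by
  classical
  set F : IrrCharacter G → IrrCharacter X := fun u =>
    ⟨(u : G → ℂ) ∘ f, Char.isIrrCharacter_comp u.2 _ hsurj⟩
  have hF : Function.Injective F := fun a b h => Subtype.ext (funext fun g => by
    obtain ⟨y, rfl⟩ := hsurj g
    exact congrArg (fun χ : IrrCharacter X => (χ : X → ℂ) y) h)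
  have hcard : Nat.card X = Nat.card f.ker * Nat.card G := by
    rw [← f.ker.card_mul_index, Subgroup.index_ker, MonoidHom.range_eq_top.2 hsurj,
      Subgroup.card_top]
  rw [blockCoeff_eq_sum, blockCoeff_eq_sum,
    show (Finset.univ.filter fun χ : IrrCharacter X =>
      χ ∈ {χ : IrrCharacter X | ∃ u ∈ U, (χ : X → ℂ) = (u : G → ℂ) ∘ f}) =
      (Finset.univ.filter fun u : IrrCharacter G => u ∈ U).image F by
    ext χ
    simp only [Finset.mem_filter, Finset.mem_univ, true_and, Set.mem_setOf_eq, Finset.mem_image]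
    exact ⟨fun ⟨u, hu, h⟩ => ⟨u, hu, Subtype.ext h.symm⟩,
      fun ⟨u, hu, h⟩ => ⟨u, hu, (congrArg Subtype.val h).symm⟩⟩,
    Finset.sum_image fun a _ b _ h => hF h, hcard, Nat.cast_mul, mul_inv, mul_assoc]
  congr 2
  refine Finset.sum_congr rfl fun u _ => ?_
  simp only [F, Function.comp_apply, map_one]

theorem dvd_orderOf_of_hom {X : Type u} [Group X] [Finite X] [Fact p.Prime] (f : X →* G)
    (hker : ¬ p ∣ Nat.card f.ker) {x : X} (hx : p ∣ orderOf x) : p ∣ orderOf (f x) := by
  by_contra h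
  have h2 : x ^ orderOf (f x) ∈ f.ker := by
    rw [MonoidHom.mem_ker, map_pow, pow_orderOf_eq_one]
  have h3 : orderOf x ∣ orderOf (f x) * Nat.card f.ker := by
    refine orderOf_dvd_of_pow_eq_one ?_
    rw [pow_mul]
    exact congrArg Subtype.val (pow_card_eq_one' (x := (⟨_, h2⟩ : f.ker)))
  exact ((Fact.out : p.Prime).dvd_mul.1 (hx.trans h3)).elim h hker

/-- The case of a `G`-invariant character of `O_{p'}`. -/
theorem blockOf_subset_of_invariant (hM : IsPModular p M) (hsolv : IsPSolvable p G)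
    (hv : 0 < (Nat.card G).factorization p) (N : Subgroup G) [N.Normal] [Fintype N]
    (hNdef : N = pPrimeCore p G) (θ : IrrCharacter N)
    (hinv : CharInd.conjStab N (θ : N → ℂ) = ⊤) {U : Set (IrrCharacter G)} (hU : VanishSing p U)
    (hover : ∀ χ ∈ U, classInner (fun n : N => (χ : G → ℂ) n) (θ : N → ℂ) ≠ 0)
    (ih : ∀ (H : Type u) [Group H] [Fintype H],
      (Nat.card H).factorization p < (Nat.card G).factorization p → IsPSolvable p H →
      VanishUnion p M H) : IsBlockUnion M U := by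
  classical
  haveI : Fact p.Prime := ⟨hM.1⟩
  have hp := hM.1
  have hpN : ¬ p ∣ Nat.card N := by
    rw [← hp.coprime_iff_not_dvd, hNdef]
    exact (PSolv.coprime_card_pPrimeCore p G).symm
  obtain ⟨X, _, _, f, N', δ, hsurj, hN'n, hmap, hcentral, hinj, hδ, hδN, hres, htor⟩ :=
    exists_cover_torsion N θ.2 fun g n => congrFun
      ((CharInd.mem_conjStab N).1 (hinv ▸ Subgroup.mem_top g)) n
  haveI : N'.Normal := hN'n
  letI := Fintype.ofFinite N'
  letI := Fintype.ofFinite (X ⧸ N')
  -- the kernel has order prime to `p`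
  obtain ⟨d, hd, hdeq, hddvd⟩ := Char.irr_degree_dvd_card θ.2
  have hkerp : ¬ p ∣ Nat.card f.ker := by
    rw [← hp.coprime_iff_not_dvd]
    refine (Element.coprime_card_of_forall_orderOf hp fun z =>
      (hp.coprime_iff_not_dvd.2 fun hz => ?_).symm).symm
    have h1 : orderOf z ∣ d * Nat.card N :=
      orderOf_dvd_of_pow_eq_one (Subtype.ext (htor d hdeq (z : X) z.2))
    exact (hp.dvd_mul.1 (hz.trans h1)).elim (fun h => hpN (h.trans hddvd)) hpN
  -- the copy of `N`
  set j : N' →* N := (f.comp N'.subtype).codRestrict N fun n => hmap ▸ ⟨n, n.2, rfl⟩ with hj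
  have hjbij : Function.Bijective j := by
    refine ⟨?_, fun n => ?_⟩
    · rw [← MonoidHom.ker_eq_bot_iff, Subgroup.eq_bot_iff_forall]
      exact fun z hz => Subtype.ext (hinj _ z.2 (congrArg Subtype.val (MonoidHom.mem_ker.1 hz)))
    · obtain ⟨z, hz, hzn⟩ := (hmap.symm ▸ n.2 : (n : G) ∈ N'.map f)
      exact ⟨⟨z, hz⟩, Subtype.ext hzn⟩
  set e : N' ≃* N := MulEquiv.ofBijective j hjbij with he
  have hδe : (fun n : N' => δ n) = (θ : N → ℂ) ∘ e := funext fun n => hres n _
  have hpN' : ¬ p ∣ Nat.card N' := by rwa [Nat.card_congr e.toEquiv]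
  set Uh : Set (IrrCharacter X) := {χ | ∃ u ∈ U, (χ : X → ℂ) = (u : G → ℂ) ∘ f} with hUh
  -- factorisation
  have hfac : ∀ χ ∈ Uh, ∃ β : IrrCharacter (X ⧸ N'), (χ : X → ℂ) = (inflIrr N' β : X → ℂ) * δ := by
    rintro χ ⟨u, hu, hχ⟩
    have h0 : classInner (fun n : N' => (χ : X → ℂ) n) (fun n : N' => δ n) ≠ 0 := by
      rw [hδe, show (fun n : N' => (χ : X → ℂ) n) = (fun n : N => (u : G → ℂ) n) ∘ e from
        funext fun n => congrFun hχ n, classInner_res_equiv]
      exact hover u hu
    obtain ⟨β, hβ, hinvβ, hχβ⟩ := CharDeep.exists_factor N' hδ hδN χ.2 h0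
    obtain ⟨β', hβ', hββ⟩ := Char.irr_exists_descend hβ N' fun n hn => by
      have := hinvβ ⟨n, hn⟩ 1
      rwa [mul_one] at this
    refine ⟨⟨β', hβ'⟩, ?_⟩
    rw [hχβ]
    exact congrArg (· * δ) (funext hββ)
  have hinfl_inv : ∀ (β : IrrCharacter (X ⧸ N')) (n : N') (x : X),
      (inflIrr N' β : X → ℂ) ((n : X) * x) = (inflIrr N' β : X → ℂ) x := fun β n x => by
    simp only [inflIrr, Function.comp_apply, map_mul,
      show QuotientGroup.mk' N' (n : X) = 1 from (QuotientGroup.eq_one_iff _).2 n.2, one_mul]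
  set W : Set (IrrCharacter (X ⧸ N')) :=
    {β | ∃ χ ∈ Uh, (χ : X → ℂ) = (inflIrr N' β : X → ℂ) * δ} with hW
  have hWinj : ∀ β β' : IrrCharacter (X ⧸ N'),
      (inflIrr N' β : X → ℂ) * δ = (inflIrr N' β' : X → ℂ) * δ → β = β' := by
    intro β β' h
    refine inflIrr_injective N' ?_
    by_contra hne
    have h1 := CharExt.classInner_mul_mul N' δ hδ hδN _ _ (hinfl_inv β) (hinfl_inv β')
    rw [h, CharExt.classInner_mul_mul N' δ hδ hδN _ _ (hinfl_inv β') (hinfl_inv β'),
      Char.classInner_irr_self (inflIrr N' β').2, Char.classInner_irrCharacter, if_neg hne] at h1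
    exact one_ne_zero h1
  have hcoeff : ∀ x : X, blockCoeff Uh x =
      δ 1 * conj (δ x) * (Nat.card N' : ℂ)⁻¹ * blockCoeff W (x : X ⧸ N') := by
    intro x
    rw [blockCoeff_eq_sum, blockCoeff_eq_sum, card_eq_mul_card_quot N', mul_inv, Finset.mul_sum,
      Finset.mul_sum, Finset.mul_sum]
    refine (Finset.sum_bij (fun β _ => (⟨(inflIrr N' β : X → ℂ) * δ,
      CharExt.isIrrCharacter_mul N' δ hδ hδN (inflIrr N' β).2 (hinfl_inv β)⟩ : IrrCharacter X))
      (fun β hβ => ?_) (fun a _ b _ h => hWinj a b (congrArg Subtype.val h)) (fun χ hχ => ?_)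
      fun β _ => ?_).symm
    · obtain ⟨χ, hχ, h⟩ := (Finset.mem_filter.1 hβ).2
      refine Finset.mem_filter.2 ⟨Finset.mem_univ _, ?_⟩
      have e1 : (⟨(inflIrr N' β : X → ℂ) * δ, CharExt.isIrrCharacter_mul N' δ hδ hδN
        (inflIrr N' β).2 (hinfl_inv β)⟩ : IrrCharacter X) = χ := Subtype.ext h.symm
      rw [e1]; exact hχ
    · obtain ⟨β, hβ⟩ := hfac χ (Finset.mem_filter.1 hχ).2
      exact ⟨β, Finset.mem_filter.2 ⟨Finset.mem_univ _, χ, (Finset.mem_filter.1 hχ).2, hβ⟩,
        Subtype.ext hβ.symm⟩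
    · simp only [Pi.mul_apply, inflIrr, Function.comp_apply, map_one, map_mul,
        QuotientGroup.mk'_apply]
      ring
  have hUhv : VanishSing p Uh := fun x hx => by
    rw [hUh, blockCoeff_comp (p := p) f hsurj U x, hU _ (dvd_orderOf_of_hom f hkerp hx), mul_zero]
  have hWv : VanishSing p W := by
    intro q hq
    obtain ⟨x, rfl⟩ := QuotientGroup.mk_surjective q
    by_contra hne
    have hzero : ∀ n : N', δ ((n : X) * x) = 0 := by
      intro n
      have hq' : (((n : X) * x : X) : X ⧸ N') = (x : X ⧸ N') := by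
        rw [QuotientGroup.mk_mul, (QuotientGroup.eq_one_iff _).2 n.2, one_mul]
      have hsing : p ∣ orderOf ((n : X) * x) := by
        refine hq.trans ?_
        rw [← hq']
        exact orderOf_map_dvd (QuotientGroup.mk' N') ((n : X) * x)
      have h1 := hUhv _ hsing
      rw [hcoeff, hq', mul_eq_zero, or_iff_left hne, mul_eq_zero,
        or_iff_left (inv_ne_zero (Nat.cast_ne_zero.2 Nat.card_pos.ne')), mul_eq_zero,
        or_iff_right (Char.irr_one_ne_zero hδ), map_eq_zero] at h1
      exact h1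
    have h2 := congrFun (CharExt.avgN_normSq_eq_one N' δ hδ hδN) x
    simp [CharExt.avgN, hzero] at h2
  -- the quotient
  have hXsolv : IsPSolvable p X := by
    refine PSolv.isPSolvable_of_extension f.ker (PSolv.isPSolvable_of_coprime ?_)
      (PSolv.isPSolvable_of_equiv (QuotientGroup.quotientKerEquivOfSurjective f hsurj).symm hsolv)
    exact (hp.coprime_iff_not_dvd.2 hkerp).symm
  have hXbar := PSolv.isPSolvable_quotient hXsolv N'
  have hvX : (Nat.card (X ⧸ N')).factorization p = (Nat.card G).factorization p := by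
    have h1 : Nat.card X = Nat.card f.ker * Nat.card G := by
      rw [← f.ker.card_mul_index, Subgroup.index_ker, MonoidHom.range_eq_top.2 hsurj,
        Subgroup.card_top]
    have h2 : Nat.card X = Nat.card N' * Nat.card (X ⧸ N') := by
      rw [← Subgroup.index_eq_card, Subgroup.card_mul_index]
    have h3 : (Nat.card f.ker * Nat.card G).factorization p =
        (Nat.card N' * Nat.card (X ⧸ N')).factorization p := by rw [← h1, h2]
    rw [Nat.factorization_mul Nat.card_pos.ne' Nat.card_pos.ne',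
      Nat.factorization_mul Nat.card_pos.ne' Nat.card_pos.ne', Finsupp.add_apply, Finsupp.add_apply,
      Nat.factorization_eq_zero_of_not_dvd hkerp, Nat.factorization_eq_zero_of_not_dvd hpN',
      zero_add, zero_add] at h3
    exact h3.symm
  have hle : N' ≤ N.comap f := fun z hz => hmap ▸ ⟨z, hz, rfl⟩
  set h := QuotientGroup.map N' N f hle with hh
  have hhsurj : Function.Surjective h := fun y => by
    obtain ⟨g, rfl⟩ := QuotientGroup.mk_surjective y
    obtain ⟨x, rfl⟩ := hsurj g
    exact ⟨(x : X ⧸ N'), rfl⟩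
  have hkerh : ∀ z, h z = 1 → ∃ k : X, f k = 1 ∧ (k : X ⧸ N') = z := by
    intro z hz
    obtain ⟨x, rfl⟩ := QuotientGroup.mk_surjective z
    obtain ⟨n, hn, hnx⟩ : f x ∈ N'.map f := by
      rw [hmap]; exact (QuotientGroup.eq_one_iff _).1 hz
    exact ⟨n⁻¹ * x, by rw [map_mul, map_inv, hnx, inv_mul_cancel],
      by rw [QuotientGroup.mk_mul, QuotientGroup.mk_inv, (QuotientGroup.eq_one_iff n).2 hn, inv_one,
        one_mul]⟩
  have hcore : pCore p (G ⧸ N) ≠ ⊥ := by
    intro hbot
    have hO : pPrimeCore p (G ⧸ N) = ⊥ := by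
      subst hNdef
      exact PSolv.pPrimeCore_quotient_eq_bot p G
    have h1 := PSolv.centralizer_pCore_le (PSolv.isPSolvable_quotient hsolv N) hO
    rw [hbot] at h1
    have h2 : N = ⊤ := by
      rw [eq_top_iff]
      intro g _
      rw [← QuotientGroup.eq_one_iff]
      exact Subgroup.mem_bot.1 (h1 fun u hu => by
        rw [SetLike.mem_coe, Subgroup.mem_bot] at hu
        rw [hu, one_mul, mul_one])
    have h3 : Nat.card N = Nat.card G := by rw [h2, Subgroup.card_top]
    rw [Nat.factorization_eq_zero_of_not_dvd (h3 ▸ hpN)] at hv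
    exact lt_irrefl _ hv
  have hcore' : pCore p (X ⧸ N') ≠ ⊥ := by
    refine pCore_ne_bot_of_central h hhsurj (fun z hz y => ?_) ?_ hcore
    · obtain ⟨k, hk, rfl⟩ := hkerh z hz
      obtain ⟨x, rfl⟩ := QuotientGroup.mk_surjective y
      rw [← QuotientGroup.mk_mul, ← QuotientGroup.mk_mul, hcentral k hk]
    · intro hdvd
      obtain ⟨z, hz⟩ := exists_prime_orderOf_dvd_card' p hdvd
      obtain ⟨k, hk, hkz⟩ := hkerh (z : X ⧸ N') z.2
      have h1 : p ∣ orderOf k := by
        refine dvd_trans ?_ (orderOf_map_dvd (QuotientGroup.mk' N') k)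
        rw [QuotientGroup.mk'_apply, hkz, Subgroup.orderOf_coe, hz]
      refine hkerp (h1.trans ?_)
      rw [show orderOf k = orderOf (⟨k, hk⟩ : f.ker) from Subgroup.orderOf_coe (⟨k, hk⟩ : f.ker)]
      exact orderOf_dvd_natCard _
  have hWu : IsBlockUnion M W := vanishUnion_of_pCore_ne_bot hM hXbar hcore'
    (fun H _ _ hlt hs => ih H (hvX ▸ hlt) hs) W hWv
  refine isBlockUnion_of_memLocalRing fun g => ?_
  obtain ⟨x, rfl⟩ := hsurj g
  have h1 := blockCoeff_comp (p := p) f hsurj U x
  rw [← hUh, hcoeff] at h1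
  have h2 : blockCoeff U (f x) =
      (Nat.card f.ker : ℂ) * (δ 1 * conj (δ x) * (Nat.card N' : ℂ)⁻¹ * blockCoeff W (x : X ⧸ N')) := by
    rw [h1, mul_inv_cancel_left₀ (Nat.cast_ne_zero.2 Nat.card_pos.ne')]
  rw [h2]
  refine (localRing M).mul_mem (memLocalRing_natCast _) ((localRing M).mul_mem
    ((localRing M).mul_mem ((localRing M).mul_mem (memLocalRing_irr ⟨δ, hδ⟩ 1) ?_)
      (memLocalRing_natCast_inv hM hpN')) (hWu.memLocalRing _))
  rw [← Char.irr_inv hδ]
  exact memLocalRing_irr ⟨δ, hδ⟩ _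

/-- The theorem of Kiyota and Okuyama. -/
theorem vanishUnion_of_isPSolvable (hM : IsPModular p M) : ∀ (v n : ℕ) (G : Type u) [Group G]
    [Fintype G], (Nat.card G).factorization p = v → Nat.card G = n → IsPSolvable p G →
    VanishUnion p M G := by
  haveI : Fact p.Prime := ⟨hM.1⟩
  intro v
  induction v using Nat.strong_induction_on with
  | _ v ihv =>
  intro n
  induction n using Nat.strong_induction_on with
  | _ n ihn =>
  intro G _ _ hv hn hsolv
  classical
  have ih : ∀ (H : Type u) [Group H] [Fintype H],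
      (Nat.card H).factorization p < (Nat.card G).factorization p → IsPSolvable p H →
      VanishUnion p M H := fun H _ _ hlt hs => ihv _ (hv ▸ hlt) _ H rfl rfl hs
  intro U hU
  by_cases hv0 : (Nat.card G).factorization p = 0
  · have hpG : ¬ p ∣ Nat.card G := fun h =>
      (hM.1.factorization_pos_of_dvd Nat.card_pos.ne' h).ne' hv0
    refine isBlockUnion_of_memLocalRing fun g => ?_
    rw [blockCoeff_eq_sum]
    refine (localRing M).mul_mem (memLocalRing_natCast_inv hM hpG)
      ((localRing M).sum_mem fun χ _ => (localRing M).mul_mem (memLocalRing_irr χ 1) ?_)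
    rw [← Char.irr_inv χ.2]
    exact memLocalRing_irr χ _
  by_cases hQ : pCore p G = ⊥
  swap
  · exact vanishUnion_of_pCore_ne_bot hM hsolv hQ ih U hU
  intro χ hχ
  set N := pPrimeCore p G with hNdef
  haveI : N.Normal := pPrimeCore_normal p G
  letI := Fintype.ofFinite N
  have hpN : ¬ p ∣ Nat.card N := by
    rw [← hM.1.coprime_iff_not_dvd, hNdef]
    exact (PSolv.coprime_card_pPrimeCore p G).symm
  obtain ⟨θ, m, hm, hθ⟩ := Char.exists_irr_constituent
    (CharInd.isCharacter_res N (Char.isCharacter_of_irr χ.2))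
    (fun h => Char.irr_one_ne_zero χ.2 (congrFun h 1))
  set U₁ : Set (IrrCharacter G) :=
    {ξ | ξ ∈ U ∧ classInner (fun k : N => (ξ : G → ℂ) k) (θ : N → ℂ) ≠ 0} with hU₁
  have hχ₁ : χ ∈ U₁ := ⟨hχ, by rw [hθ]; exact Nat.cast_ne_zero.2 hm.ne'⟩
  have hU₁v : VanishSing p U₁ := hU.over N hpN θ
  have key : IsBlockUnion M U₁ := by
    by_cases hinv : CharInd.conjStab N (θ : N → ℂ) = ⊤
    · exact blockOf_subset_of_invariant hM hsolv (Nat.pos_of_ne_zero hv0) N rfl θ hinv hU₁v
        (fun ξ hξ => hξ.2) ih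
    · letI := Fintype.ofFinite (CharInd.conjStab N (θ : N → ℂ))
      refine blockOf_subset_of_stab hM N hpN θ hU₁v (fun ξ hξ => hξ.2) ?_
      set T := CharInd.conjStab N (θ : N → ℂ)
      have hlt : Nat.card T < n := hn ▸ lt_of_le_of_ne (Subgroup.card_le_card_group T)
        fun h => hinv (Subgroup.eq_top_of_card_eq _ h)
      have hs := PSolv.isPSolvable_subgroup hsolv T
      have hle : (Nat.card T).factorization p ≤ (Nat.card G).factorization p :=
        (Nat.factorization_le_iff_dvd Nat.card_pos.ne' Nat.card_pos.ne').2 T.card_subgroup_dvd_card p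
      rcases hle.lt_or_eq with h | h
      · exact ih T h hs
      · exact ihn _ hlt T (h.trans hv) rfl hs
  exact (key χ hχ₁).trans fun ξ hξ => hξ.1

end Cfsg.Agent.BlockCover
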